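import Mathlib
import Cfsg.Prelude.Def_KGroupFacts

/-!
# Abstract group theory for the automorphisms of groups with a split `(B, N)`-pair

If `U`, `V` are opposite subgroups of a group with a Bruhat decomposition `G = U N' U`, every automorphism
is, up to an inner one, an automorphism preserving `U` and `V`; the count of the outer automorphism group.
-/

set_option autoImplicit false
set_option linter.unusedSectionVars false
set_option linter.unusedVariables false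

namespace Cfsg.Agent.Lib.TwAut.Abs

open Cfsg

variable {G : Type*} [Group G]

/-- Up to an inner automorphism, an automorphism preserves `U` and `V`. -/
theorem exists_normalized (U V : Subgroup G) (N' : Set G) (m : G)
    (hUV : ∀ v, v ∈ U → v ∈ V → v = 1)
    (hm : ∀ v, v ∈ V ↔ m⁻¹ * v * m ∈ U)
    (hconj : ∀ θ : G ≃* G, ∃ g, ∀ x, x ∈ U ↔ g * θ x * g⁻¹ ∈ U)
    (hbruhat : ∀ y : G, ∃ b ∈ U, ∃ n ∈ N', ∃ c ∈ U, y = b * n * c)
    (hN : ∀ n ∈ N', (∀ u ∈ U, n * u * n⁻¹ ∈ U → u = 1) → ∀ v, v ∈ V ↔ n⁻¹ * v * n ∈ U)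
    (θ : G ≃* G) :
    ∃ (x : G) (σ : G ≃* G), (∀ y, θ y = x * σ y * x⁻¹) ∧ (∀ u, u ∈ U ↔ σ u ∈ U) ∧ (∀ v, v ∈ V ↔ σ v ∈ V) := by
  obtain ⟨g, hg⟩ := hconj θ
  set σ₁ : G ≃* G := θ.trans (MulAut.conj g) with hσ₁
  have hσ₁a : ∀ x, σ₁ x = g * θ x * g⁻¹ := fun x => rfl
  have hσ₁U : ∀ x, x ∈ U ↔ σ₁ x ∈ U := hg
  obtain ⟨y₀, hy₀⟩ := hconj ((MulAut.conj m).trans σ₁)
  have hy₀' : ∀ x, x ∈ U ↔ y₀ * σ₁ (m * x * m⁻¹) * y₀⁻¹ ∈ U := hy₀
  obtain ⟨b', hb'U, n', hn', c', hc'U, hy⟩ := hbruhat y₀⁻¹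
  -- for `v ∈ V`, the element `σ₁ v` is in `yUy⁻¹`
  have hV1 : ∀ v, v ∈ V ↔ y₀ * σ₁ v * y₀⁻¹ ∈ U := by
    intro v
    rw [hm, hy₀' (m⁻¹ * v * m)]
    have : m * (m⁻¹ * v * m) * m⁻¹ = v := by group
    rw [this]
  have hnU : ∀ v, v ∈ V ↔ n'⁻¹ * v * n' ∈ U := by
    apply hN n' hn'
    intro u0 hu0U hnu
    set z : G := b' * (n' * u0 * n'⁻¹) * b'⁻¹ with hz
    have hzU : z ∈ U := by
      refine Subgroup.mul_mem _ (Subgroup.mul_mem _ hb'U hnu) (Subgroup.inv_mem _ hb'U)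
    have hzV : σ₁.symm z ∈ V := by
      rw [hV1, MulEquiv.apply_symm_apply]
      have e1 : y₀ * z * y₀⁻¹ = c'⁻¹ * u0 * c' := by
        have e2 : y₀ = (b' * n' * c')⁻¹ := by rw [← hy, inv_inv]
        rw [e2, hz]
        group
      rw [e1]
      exact Subgroup.mul_mem _ (Subgroup.mul_mem _ (Subgroup.inv_mem _ hc'U) hu0U) hc'U
    have hzU' : σ₁.symm z ∈ U := by
      rw [hσ₁U, MulEquiv.apply_symm_apply]
      exact hzU
    have h0 := hUV _ hzU' hzV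
    have hz1 : z = 1 := by
      have := congrArg σ₁ h0
      simpa using this
    have e6 : u0 = n'⁻¹ * b'⁻¹ * z * b' * n' := by rw [hz]; group
    rw [e6, hz1]
    group
  have hV2 : ∀ v, v ∈ V ↔ b'⁻¹ * σ₁ v * b' ∈ V := by
    intro v
    rw [hV1]
    have e2 : y₀ = (b' * n' * c')⁻¹ := by rw [← hy, inv_inv]
    rw [hnU (b'⁻¹ * σ₁ v * b')]
    have e3 : n'⁻¹ * (b'⁻¹ * σ₁ v * b') * n' = c' * (y₀ * σ₁ v * y₀⁻¹) * c'⁻¹ := by
      rw [e2]
      group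
    rw [e3]
    constructor
    · intro hw
      exact Subgroup.mul_mem _ (Subgroup.mul_mem _ hc'U hw) (Subgroup.inv_mem _ hc'U)
    · intro hw
      have e5 : y₀ * σ₁ v * y₀⁻¹ = c'⁻¹ * (c' * (y₀ * σ₁ v * y₀⁻¹) * c'⁻¹) * c' := by group
      rw [e5]
      exact Subgroup.mul_mem _ (Subgroup.mul_mem _ (Subgroup.inv_mem _ hc'U) hw) hc'U
  refine ⟨g⁻¹ * b', σ₁.trans (MulAut.conj b'⁻¹), ?_, ?_, ?_⟩
  · intro y
    have : (σ₁.trans (MulAut.conj b'⁻¹)) y = b'⁻¹ * σ₁ y * b' := by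
      simp
    rw [this, hσ₁a]
    group
  · intro u
    have : (σ₁.trans (MulAut.conj b'⁻¹)) u = b'⁻¹ * σ₁ u * b' := by
      simp
    rw [this, hσ₁U]
    constructor
    · intro hw
      exact Subgroup.mul_mem _ (Subgroup.mul_mem _ (Subgroup.inv_mem _ hb'U) hw) hb'U
    · intro hw
      have e : σ₁ u = b' * (b'⁻¹ * σ₁ u * b') * b'⁻¹ := by group
      rw [e]
      exact Subgroup.mul_mem _ (Subgroup.mul_mem _ hb'U hw) (Subgroup.inv_mem _ hb'U)
  · intro v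
    have : (σ₁.trans (MulAut.conj b'⁻¹)) v = b'⁻¹ * σ₁ v * b' := by
      simp
    rw [this]
    exact hV2 v

/-- Conjugacy of Sylow subgroups: every automorphism composed with an inner one preserves a Sylow subgroup. -/
theorem exists_conj_of_sylow [Finite G] {p : ℕ} [Fact p.Prime] (P₀ : Sylow p G) (θ : G ≃* G) :
    ∃ g : G, ∀ x, x ∈ (P₀ : Subgroup G) ↔ g * θ x * g⁻¹ ∈ (P₀ : Subgroup G) := by
  obtain ⟨g, hg⟩ := MulAction.exists_smul_eq G ((θ : MulAut G) • P₀) P₀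
  refine ⟨g, fun x => ?_⟩
  have key : ∀ y, y ∈ (P₀ : Subgroup G) ↔ θ.symm (g⁻¹ * y * g) ∈ (P₀ : Subgroup G) := by
    intro y
    conv_lhs => rw [← hg]
    rw [Sylow.coe_subgroup_smul, Subgroup.mem_pointwise_smul_iff_inv_smul_mem, Sylow.pointwise_smul_def,
      Subgroup.mem_pointwise_smul_iff_inv_smul_mem]
    simp [MulAut.smul_def, MulAut.inv_def]
  rw [key (g * θ x * g⁻¹)]
  have e3 : g⁻¹ * (g * θ x * g⁻¹) * g = θ x := by group
  rw [e3, MulEquiv.symm_apply_apply]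

/-- The automorphisms preserving `U` and `V`. -/
def normSub (U V : Subgroup G) : Subgroup (MulAut G) where
  carrier := {σ | (∀ u, u ∈ U ↔ σ u ∈ U) ∧ (∀ v, v ∈ V ↔ σ v ∈ V)}
  one_mem' := ⟨fun u => Iff.rfl, fun u => Iff.rfl⟩
  mul_mem' := by
    rintro a b ⟨ha, ha'⟩ ⟨hb, hb'⟩
    exact ⟨fun u => (hb u).trans (ha _), fun u => (hb' u).trans (ha' _)⟩
  inv_mem' := by
    rintro a ⟨ha, ha'⟩
    constructor
    · intro u
      rw [ha (a⁻¹ u)]
      simp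
    · intro u
      rw [ha' (a⁻¹ u)]
      simp

lemma mem_normSub {U V : Subgroup G} {σ : MulAut G} :
    σ ∈ normSub U V ↔ (∀ u, u ∈ U ↔ σ u ∈ U) ∧ (∀ v, v ∈ V ↔ σ v ∈ V) := Iff.rfl

/-- The map from the normalized automorphisms to the outer automorphisms. -/
noncomputable def toOut (U V : Subgroup G) : normSub U V →* Out G :=
  (QuotientGroup.mk' (Inn G)).comp (normSub U V).subtype

lemma toOut_surj {U V : Subgroup G}
    (hn : ∀ θ : G ≃* G, ∃ (x : G) (σ : G ≃* G), (∀ y, θ y = x * σ y * x⁻¹) ∧ (∀ u, u ∈ U ↔ σ u ∈ U) ∧ (∀ v, v ∈ V ↔ σ v ∈ V)) :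
    Function.Surjective (toOut U V) := by
  intro q
  obtain ⟨θ, rfl⟩ := QuotientGroup.mk'_surjective (Inn G) q
  obtain ⟨x, σ, hx, hU, hV⟩ := hn θ
  refine ⟨⟨σ, hU, hV⟩, ?_⟩
  show (QuotientGroup.mk' (Inn G)) σ = _
  have e : θ = MulAut.conj x * σ := by
    ext y
    rw [hx]
    rfl
  rw [e, map_mul]
  have : (QuotientGroup.mk' (Inn G)) (MulAut.conj x) = 1 := by
    rw [QuotientGroup.mk'_apply, QuotientGroup.eq_one_iff]
    exact ⟨x, rfl⟩
  rw [this, one_mul]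

theorem card_out_mul {U V : Subgroup G}
    (hn : ∀ θ : G ≃* G, ∃ (x : G) (σ : G ≃* G), (∀ y, θ y = x * σ y * x⁻¹) ∧ (∀ u, u ∈ U ↔ σ u ∈ U) ∧ (∀ v, v ∈ V ↔ σ v ∈ V)) :
    Nat.card (toOut U V).ker * Nat.card (Out G) = Nat.card (normSub U V) := by
  have h1 := Subgroup.card_mul_index (toOut U V).ker
  rw [Subgroup.index_ker, MonoidHom.range_eq_top.mpr (toOut_surj hn), Nat.card_congr (Subgroup.topEquiv).toEquiv] at h1
  exact h1

/-- With a trivial centre, the kernel of the map to `Out` is in bijection with the normalizer of the pair. -/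
theorem card_ker {U V : Subgroup G} (hc : Subgroup.center G = ⊥) (H : Subgroup G)
    (hH : ∀ x : G, x ∈ H ↔ (∀ u, u ∈ U ↔ x * u * x⁻¹ ∈ U) ∧ (∀ v, v ∈ V ↔ x * v * x⁻¹ ∈ V)) :
    Nat.card (toOut U V).ker = Nat.card H := by
  have hker : ∀ σ : normSub U V, σ ∈ (toOut U V).ker ↔ (σ : MulAut G) ∈ Inn G := by
    intro σ
    rw [MonoidHom.mem_ker]
    show (QuotientGroup.mk' (Inn G)) (σ : MulAut G) = 1 ↔ _
    rw [QuotientGroup.mk'_apply, QuotientGroup.eq_one_iff]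
  have hconj : ∀ a : H, MulAut.conj (a : G) ∈ normSub U V := by
    intro a
    exact (hH a).mp a.2
  let f : H → (toOut U V).ker := fun a =>
    ⟨⟨MulAut.conj (a : G), hconj a⟩, (hker _).mpr ⟨_, rfl⟩⟩
  apply Eq.symm
  apply Nat.card_congr
  refine Equiv.ofBijective f ⟨?_, ?_⟩
  · intro a b e
    have e1 : MulAut.conj (a : G) = MulAut.conj (b : G) :=
      congrArg (fun s : (toOut U V).ker => ((s : normSub U V) : MulAut G)) e
    have e2 : (a : G)⁻¹ * b ∈ Subgroup.center G := by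
      rw [Subgroup.mem_center_iff]
      intro g
      have e3 := DFunLike.congr_fun e1 g
      simp only [MulAut.conj_apply] at e3
      calc g * ((a : G)⁻¹ * b) = (a : G)⁻¹ * ((a : G) * g * (a : G)⁻¹) * b := by group
        _ = (a : G)⁻¹ * ((b : G) * g * (b : G)⁻¹) * b := by rw [e3]
        _ = _ := by group
    rw [hc, Subgroup.mem_bot, inv_mul_eq_one] at e2
    exact Subtype.ext e2
  · rintro ⟨⟨σ, hU⟩, hσ⟩
    obtain ⟨x, hx⟩ := (hker _).mp hσ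
    simp only at hx
    subst hx
    refine ⟨⟨x, (hH x).mpr hU⟩, ?_⟩
    rfl

/-- The count of the outer automorphism group. -/
theorem card_out {U V : Subgroup G} (hc : Subgroup.center G = ⊥) (H : Subgroup G)
    (hH : ∀ x : G, x ∈ H ↔ (∀ u, u ∈ U ↔ x * u * x⁻¹ ∈ U) ∧ (∀ v, v ∈ V ↔ x * v * x⁻¹ ∈ V))
    (hn : ∀ θ : G ≃* G, ∃ (x : G) (σ : G ≃* G), (∀ y, θ y = x * σ y * x⁻¹) ∧ (∀ u, u ∈ U ↔ σ u ∈ U) ∧ (∀ v, v ∈ V ↔ σ v ∈ V)) :
    Nat.card H * Nat.card (Out G) = Nat.card (normSub U V) := by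
  rw [← card_ker hc H hH, card_out_mul hn]

end Cfsg.Agent.Lib.TwAut.Abs
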