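import Cfsg.Agent.Lib.Steinberg.AutField

/-!
# Rank one relations for classes of roots

Products of commuting rank one systems, composition with field embeddings, and the shape of an automorphism
normalizing the root subgroups of a rank one system.
-/

set_option autoImplicit false
set_option linter.unusedSectionVars false
set_option linter.unusedVariables false

namespace Cfsg.Agent.Lib.TwAut.Rank1

open scoped MatrixGroups Matrix
open Cfsg.Agent.Lib.Chev.SL2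
open Cfsg.Agent.Lib.Steinberg.AutField

variable {G : Type*} [Group G] {F : Type*} [Field F] {E : Type*} [Field E]

/-- Composition with a field embedding. -/
lemma RankOneRel.comp {X Y : E → G} (R : RankOneRel X Y) (f : F →+* E) :
    RankOneRel (fun t => X (f t)) (fun t => Y (f t)) := by
  have hW : ∀ t : F, WW (fun t => X (f t)) (fun t => Y (f t)) t = WW X Y (f t) := by
    intro t
    simp only [WW, map_neg, map_inv₀]
  have hH : ∀ t : F, HH (fun t => X (f t)) (fun t => Y (f t)) t = HH X Y (f t) := by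
    intro t
    simp only [HH, hW, map_neg, map_one]
  refine ⟨fun a b => ?_, fun a b => ?_, fun t u ht => ?_, fun t u ht => ?_, fun a b ha hb => ?_⟩
  · simp only [map_add, R.X_add]
  · simp only [map_add, R.Y_add]
  · rw [hW]
    have ht' : f t ≠ 0 := by simpa using ht
    rw [R.conj_X _ _ ht']
    simp only [map_neg, map_mul, map_pow, map_inv₀]
  · rw [hW]
    have ht' : f t ≠ 0 := by simpa using ht
    rw [R.conj_Y _ _ ht']
    simp only [map_neg, map_mul, map_pow]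
  · rw [hH, hH, hH, R.H_mul _ _ (by simpa using ha) (by simpa using hb), map_mul]

/-- The product of two commuting rank one systems: the elements `w`. -/
lemma WW_mul {X₁ Y₁ X₂ Y₂ : F → G} (hxx : ∀ a b, Commute (X₁ a) (X₂ b)) (hyx : ∀ a b, Commute (Y₁ a) (X₂ b))
    (hxy : ∀ a b, Commute (X₁ a) (Y₂ b)) (t : F) :
    WW (fun t => X₁ t * X₂ t) (fun t => Y₁ t * Y₂ t) t = WW X₁ Y₁ t * WW X₂ Y₂ t := by
  simp only [WW]
  set a₁ := X₁ t
  set a₂ := X₂ t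
  set b₁ := Y₁ (-t⁻¹)
  set b₂ := Y₂ (-t⁻¹)
  have c1 : a₂ * b₁ = b₁ * a₂ := (hyx _ _).eq.symm
  have c2 : a₂ * a₁ = a₁ * a₂ := (hxx _ _).eq.symm
  have c3 : b₂ * a₁ = a₁ * b₂ := (hxy _ _).eq.symm
  calc a₁ * a₂ * (b₁ * b₂) * (a₁ * a₂) = a₁ * (a₂ * b₁) * b₂ * (a₁ * a₂) := by group
    _ = a₁ * b₁ * (a₂ * b₂) * (a₁ * a₂) := by rw [c1]; group
    _ = a₁ * b₁ * a₂ * (b₂ * a₁) * a₂ := by group
    _ = a₁ * b₁ * (a₂ * a₁) * b₂ * a₂ := by rw [c3]; group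
    _ = a₁ * b₁ * a₁ * (a₂ * b₂ * a₂) := by rw [c2]; group

section mul

variable {X₁ Y₁ X₂ Y₂ : F → G} (R₁ : RankOneRel X₁ Y₁) (R₂ : RankOneRel X₂ Y₂)
  (hxx : ∀ a b, Commute (X₁ a) (X₂ b)) (hxy : ∀ a b, Commute (X₁ a) (Y₂ b))
  (hyx : ∀ a b, Commute (Y₁ a) (X₂ b)) (hyy : ∀ a b, Commute (Y₁ a) (Y₂ b))

include hxx hxy hyx hyy

lemma comm_WW_X₂ (s t : F) : Commute (WW X₁ Y₁ s) (X₂ t) :=
  ((hxx _ _).mul_left (hyx _ _)).mul_left (hxx _ _)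

lemma comm_WW_Y₂ (s t : F) : Commute (WW X₁ Y₁ s) (Y₂ t) :=
  ((hxy _ _).mul_left (hyy _ _)).mul_left (hxy _ _)

lemma comm_WW_WW (s t : F) : Commute (WW X₁ Y₁ s) (WW X₂ Y₂ t) :=
  ((comm_WW_X₂ hxx hxy hyx hyy s _).mul_right (comm_WW_Y₂ hxx hxy hyx hyy s _)).mul_right
    (comm_WW_X₂ hxx hxy hyx hyy s _)

lemma HH_mul (t : F) :
    HH (fun t => X₁ t * X₂ t) (fun t => Y₁ t * Y₂ t) t = HH X₁ Y₁ t * HH X₂ Y₂ t := by
  simp only [HH, WW_mul hxx hyx hxy]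
  have c := (comm_WW_WW hxx hxy hyx hyy (-1) t).eq
  calc WW X₁ Y₁ t * WW X₂ Y₂ t * (WW X₁ Y₁ (-1) * WW X₂ Y₂ (-1))
      = WW X₁ Y₁ t * (WW X₂ Y₂ t * WW X₁ Y₁ (-1)) * WW X₂ Y₂ (-1) := by group
    _ = WW X₁ Y₁ t * (WW X₁ Y₁ (-1) * WW X₂ Y₂ t) * WW X₂ Y₂ (-1) := by rw [c]
    _ = _ := by group

include R₁ R₂

/-- The product of two commuting rank one systems. -/
theorem RankOneRel.mul : RankOneRel (fun t => X₁ t * X₂ t) (fun t => Y₁ t * Y₂ t) := by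
  refine ⟨fun a b => ?_, fun a b => ?_, fun t u ht => ?_, fun t u ht => ?_, fun a b ha hb => ?_⟩
  · have c := (hxx b a).eq
    calc X₁ a * X₂ a * (X₁ b * X₂ b) = X₁ a * (X₂ a * X₁ b) * X₂ b := by group
      _ = X₁ a * (X₁ b * X₂ a) * X₂ b := by rw [c]
      _ = (X₁ a * X₁ b) * (X₂ a * X₂ b) := by group
      _ = _ := by rw [R₁.X_add, R₂.X_add]
  · have c := (hyy b a).eq
    calc Y₁ a * Y₂ a * (Y₁ b * Y₂ b) = Y₁ a * (Y₂ a * Y₁ b) * Y₂ b := by group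
      _ = Y₁ a * (Y₁ b * Y₂ a) * Y₂ b := by rw [c]
      _ = (Y₁ a * Y₁ b) * (Y₂ a * Y₂ b) := by group
      _ = _ := by rw [R₁.Y_add, R₂.Y_add]
  · rw [WW_mul hxx hyx hxy]
    have c1 := (comm_WW_X₂ hxx hxy hyx hyy t u).eq
    have c2 := (hxx u t)
    have c3 : Commute (X₁ u) (WW X₂ Y₂ t) :=
      ((hxx _ _).mul_right (hxy _ _)).mul_right (hxx _ _)
    have c4 := comm_WW_Y₂ hxx hxy hyx hyy t (-(t⁻¹ ^ 2 * u))
    have e1 := R₁.conj_X t u ht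
    have e2 := R₂.conj_X t u ht
    calc WW X₁ Y₁ t * WW X₂ Y₂ t * (X₁ u * X₂ u) * (WW X₁ Y₁ t * WW X₂ Y₂ t)⁻¹
        = WW X₁ Y₁ t * (WW X₂ Y₂ t * X₁ u) * X₂ u * (WW X₂ Y₂ t)⁻¹ * (WW X₁ Y₁ t)⁻¹ := by group
      _ = WW X₁ Y₁ t * X₁ u * (WW X₂ Y₂ t * X₂ u * (WW X₂ Y₂ t)⁻¹) * (WW X₁ Y₁ t)⁻¹ := by rw [c3.eq.symm]; group
      _ = (WW X₁ Y₁ t * X₁ u) * (Y₂ (-(t⁻¹ ^ 2 * u)) * (WW X₁ Y₁ t)⁻¹) := by rw [e2]; group
      _ = (WW X₁ Y₁ t * X₁ u) * ((WW X₁ Y₁ t)⁻¹ * Y₂ (-(t⁻¹ ^ 2 * u))) := by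
          rw [(c4.inv_left).eq]
      _ = (WW X₁ Y₁ t * X₁ u * (WW X₁ Y₁ t)⁻¹) * Y₂ (-(t⁻¹ ^ 2 * u)) := by group
      _ = _ := by rw [e1]
  · rw [WW_mul hxx hyx hxy]
    have c3 : Commute (Y₁ u) (WW X₂ Y₂ t) :=
      ((hyx _ _).mul_right (hyy _ _)).mul_right (hyx _ _)
    have c4 := comm_WW_X₂ hxx hxy hyx hyy t (-(t ^ 2 * u))
    have e1 := R₁.conj_Y t u ht
    have e2 := R₂.conj_Y t u ht
    calc WW X₁ Y₁ t * WW X₂ Y₂ t * (Y₁ u * Y₂ u) * (WW X₁ Y₁ t * WW X₂ Y₂ t)⁻¹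
        = WW X₁ Y₁ t * (WW X₂ Y₂ t * Y₁ u) * Y₂ u * (WW X₂ Y₂ t)⁻¹ * (WW X₁ Y₁ t)⁻¹ := by group
      _ = WW X₁ Y₁ t * Y₁ u * (WW X₂ Y₂ t * Y₂ u * (WW X₂ Y₂ t)⁻¹) * (WW X₁ Y₁ t)⁻¹ := by rw [c3.eq.symm]; group
      _ = (WW X₁ Y₁ t * Y₁ u) * (X₂ (-(t ^ 2 * u)) * (WW X₁ Y₁ t)⁻¹) := by rw [e2]; group
      _ = (WW X₁ Y₁ t * Y₁ u) * ((WW X₁ Y₁ t)⁻¹ * X₂ (-(t ^ 2 * u))) := by
          rw [(c4.inv_left).eq]
      _ = (WW X₁ Y₁ t * Y₁ u * (WW X₁ Y₁ t)⁻¹) * X₂ (-(t ^ 2 * u)) := by group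
      _ = _ := by rw [e1]
  · rw [HH_mul hxx hxy hyx hyy, HH_mul hxx hxy hyx hyy, HH_mul hxx hxy hyx hyy]
    have c : Commute (HH X₂ Y₂ a) (HH X₁ Y₁ b) := by
      simp only [HH]
      exact ((comm_WW_WW hxx hxy hyx hyy _ _).mul_left (comm_WW_WW hxx hxy hyx hyy _ _)).mul_right
        ((comm_WW_WW hxx hxy hyx hyy _ _).mul_left (comm_WW_WW hxx hxy hyx hyy _ _)) |>.symm
    calc HH X₁ Y₁ a * HH X₂ Y₂ a * (HH X₁ Y₁ b * HH X₂ Y₂ b)
        = HH X₁ Y₁ a * (HH X₂ Y₂ a * HH X₁ Y₁ b) * HH X₂ Y₂ b := by group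
      _ = HH X₁ Y₁ a * (HH X₁ Y₁ b * HH X₂ Y₂ a) * HH X₂ Y₂ b := by rw [c.eq]
      _ = (HH X₁ Y₁ a * HH X₁ Y₁ b) * (HH X₂ Y₂ a * HH X₂ Y₂ b) := by group
      _ = _ := by rw [R₁.H_mul a b ha hb, R₂.H_mul a b ha hb]

end mul

section key

variable {X Y : F → G} (R : RankOneRel X Y) (U V Hs : Subgroup G)
  (hX : ∀ t, X t ∈ U) (hY : ∀ t, Y t ∈ V) (hH : ∀ t, t ≠ 0 → HH X Y t ∈ Hs)
  (hUH : ∀ u, u ∈ U → u ∈ Hs → u = 1) (hUV : ∀ u, u ∈ U → u ∈ V → u = 1)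
  (Xinj : Function.Injective X)

include R hX hY hH hUH hUV Xinj

/-- The kernel of the rank one map has no unipotent part. -/
lemma ker_entry {g : SL(2, F)} (hg : phiHom X Y R g = 1) : g.1 0 1 = 0 := by
  change phiF _ _ g = 1 at hg
  by_cases hc : g.1 1 0 = 0
  · rw [phiF_of_c0 hc] at hg
    have h0 := ne_zero_of_c hc
    have e1 : HH X Y (g.1 0 0) = X (-(g.1 0 1 / g.1 0 0)) := by
      rw [← R.X_inv]
      exact eq_inv_of_mul_eq_one_left hg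
    have e3 : X (-(g.1 0 1 / g.1 0 0)) = 1 := hUH _ (hX _) (e1 ▸ hH _ h0)
    have e4 : -(g.1 0 1 / g.1 0 0) = 0 := Xinj (by rw [e3, R.X_zero])
    have e5 : g.1 0 1 / g.1 0 0 = 0 := neg_eq_zero.mp e4
    exact (div_eq_zero_iff.mp e5).resolve_right h0
  · exfalso
    rw [phiF_of_cne hc] at hg
    set s := -1 / g.1 1 0 with hs
    have hs0 : s ≠ 0 := by
      rw [hs]
      exact div_ne_zero (neg_ne_zero.mpr one_ne_zero) hc
    obtain ⟨u, hu⟩ : ∃ u, WW X Y s = X u := by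
      refine ⟨-(g.1 0 0 / g.1 1 0) - g.1 1 1 / g.1 1 0, ?_⟩
      have e1 : X (g.1 0 0 / g.1 1 0) * (WW X Y s) = (X (g.1 1 1 / g.1 1 0))⁻¹ := eq_inv_of_mul_eq_one_left hg
      have e2 : WW X Y s = (X (g.1 0 0 / g.1 1 0))⁻¹ * (X (g.1 1 1 / g.1 1 0))⁻¹ := by
        rw [← e1]
        group
      rw [e2, R.X_inv, R.X_inv, R.X_add, sub_eq_add_neg]
    have e1 := R.conj_X s 1 hs0
    rw [hu] at e1
    have e2 : X u * X 1 * (X u)⁻¹ = X 1 := by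
      rw [R.X_inv, R.X_add, R.X_add]
      congr 1
      ring
    rw [e2] at e1
    have e3 : X 1 = 1 := hUV _ (hX _) (e1 ▸ hY _)
    have e4 : (1 : F) = 0 := Xinj (by rw [e3, R.X_zero])
    exact one_ne_zero e4

/-- If the conjugate of `x(s)` by `x(a) y(b) x(a)` lies in `Y`, then `1 + ab = 0`. -/
lemma conj_key {a b s c : F} (hs : s ≠ 0)
    (e : (X a * Y b * X a) * X s * (X a * Y b * X a)⁻¹ = Y c) : 1 + a * b = 0 := by
  set N : SL(2, F) := upM a * loM b * upM a * upM s * upM (-a) * loM (-b) * upM (-a) * loM (-c) with hN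
  have h1 : phiHom X Y R N = 1 := by
    rw [hN]
    simp only [map_mul, phiHom_up R, phiHom_lo R]
    have e' : (X a * Y b * X a) * X s * (X a * Y b * X a)⁻¹ * (Y c)⁻¹ = 1 := by
      rw [e, mul_inv_cancel]
    rw [← e']
    simp only [mul_inv_rev, R.X_inv, R.Y_inv]
    group
  have h2' := ker_entry R U V Hs hX hY hH hUH hUV Xinj h1
  have hup : ∀ t : F, ((upM t : SL(2, F)) : Matrix (Fin 2) (Fin 2) F) = !![1, t; 0, 1] := fun t => rfl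
  have hlo : ∀ t : F, ((loM t : SL(2, F)) : Matrix (Fin 2) (Fin 2) F) = !![1, 0; t, 1] := fun t => rfl
  have h3 : N.1 0 1 = s * (1 + a * b) ^ 2 := by
    rw [hN]
    simp only [Matrix.SpecialLinearGroup.coe_mul, hup, hlo]
    simp [Matrix.mul_apply, Fin.sum_univ_two]
    ring
  rw [h3] at h2'
  have := (mul_eq_zero.mp h2').resolve_left hs
  exact pow_eq_zero_iff (two_ne_zero) |>.mp this

omit hX hY hH hUH hUV in
lemma Y_inj : Function.Injective Y := by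
  intro a b e
  have e1 := R.conj_Y (1 : F) a one_ne_zero
  have e2 := R.conj_Y (1 : F) b one_ne_zero
  rw [e] at e1
  rw [e1] at e2
  have := Xinj e2
  simp at this
  exact this

variable {σ : G ≃* G} {φ ψ : F → F} (hφ : ∀ t, σ (X t) = X (φ t)) (hψ : ∀ t, σ (Y t) = Y (ψ t))

include hφ hψ

/-- The shape of an automorphism preserving a rank one system. -/
theorem exists_shape [Finite F] :
    ∃ (τ : F ≃+* F) (c : Fˣ), ∀ t, φ t = c * τ t ∧ ψ t = (c : F)⁻¹ * τ t := by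
  have Yinj := Y_inj R Xinj
  have add1 : ∀ a b, φ (a + b) = φ a + φ b := by
    intro a b
    apply Xinj
    rw [← hφ, ← R.X_add, ← R.X_add, map_mul, hφ, hφ]
  have add2 : ∀ a b, ψ (a + b) = ψ a + ψ b := by
    intro a b
    apply Yinj
    rw [← hψ, ← R.Y_add, ← R.Y_add, map_mul, hψ, hψ]
  have inj1 : Function.Injective φ := by
    intro a b e
    apply Xinj
    apply σ.injective
    rw [hφ, hφ, e]
  have inj2 : Function.Injective ψ := by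
    intro a b e
    apply Yinj
    apply σ.injective
    rw [hψ, hψ, e]
  have φ0 : φ 0 = 0 := by
    have := add1 0 0
    rw [add_zero] at this
    exact left_eq_add.1 this
  have key : ∀ t, t ≠ 0 → 1 + φ t * ψ (-t⁻¹) = 0 := by
    intro t ht
    have e1 := R.conj_X t 1 ht
    have e3 := congrArg σ e1
    simp only [WW, map_mul, map_inv, hφ, hψ] at e3
    refine conj_key R U V Hs hX hY hH hUH hUV Xinj ?_ e3
    intro e5
    have : φ 1 = φ 0 := by rw [e5, φ0]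
    exact one_ne_zero (inj1 this)
  exact field_part φ ψ add1 add2 inj1 inj2 key

end key

section maph

variable {X Y : F → G} (R : RankOneRel X Y) {σ : G ≃* G} {c : F} (hc : c ≠ 0) {τ : F ≃+* F}
  (hφ : ∀ t, σ (X t) = X (c * τ t)) (hψ : ∀ t, σ (Y t) = Y (c⁻¹ * τ t))

include R hc hφ hψ

lemma map_WW {t : F} (ht : t ≠ 0) : σ (WW X Y t) = WW X Y (c * τ t) := by
  simp only [WW, map_mul, hφ, hψ]
  have e : c⁻¹ * τ (-t⁻¹) = -(c * τ t)⁻¹ := by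
    rw [map_neg, map_inv₀, mul_inv]
    ring
  rw [e]

lemma map_HH {t : F} (ht : t ≠ 0) : σ (HH X Y t) = HH X Y (τ t) := by
  have h1 : (-1 : F) ≠ 0 := neg_ne_zero.mpr one_ne_zero
  have hτ : τ t ≠ 0 := by simpa using ht
  have hc1 : c * τ (-1) ≠ 0 := mul_ne_zero hc (by simp)
  rw [HH, map_mul, map_WW R hc hφ hψ ht, map_WW R hc hφ hψ h1, R.W_mul_W (mul_ne_zero hc hτ) hc1]
  congr 1
  simp only [map_neg, map_one]
  field_simp

end maph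

end Cfsg.Agent.Lib.TwAut.Rank1
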