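import Cfsg.Agent.Lib.TwAut.Perm
import Cfsg.Agent.Lib.TwAut.Rank1
import Cfsg.Agent.Lib.Steinberg.AutExist

/-!
# Automorphisms of twisted groups: the shape of a normalized automorphism

The data of the root elements of the classes, and the shape of an automorphism preserving `U¹` and `V¹`.
-/

set_option autoImplicit false
set_option linter.unusedSectionVars false
set_option linter.unusedVariables false
set_option linter.ambiguousOpen false
set_option linter.dupNamespace false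

namespace Cfsg.Agent.Lib.TwAut.Class

open scoped MatrixGroups Matrix
open Cfsg Lie ChevalleyDatum
open Cfsg.Agent.Lib.Chev
open Tables Tables2 Tables3 Raise Basic AxBasic Torus Products Products2 Mono1 Mono2 Mono3 Bn Parab Unipotent SL2
open Cfsg.Agent.Lib.Twisted.Fact Cfsg.Agent.Lib.Twisted.Bruhat Cfsg.Agent.Lib.Twisted.Tw
open Cfsg.Agent.Lib.Twisted.Struct
open Cfsg.Agent.Lib.TwAut.Norm Cfsg.Agent.Lib.TwAut.Perm
open Cfsg.Agent.Lib.Steinberg.AutExist (dU dU_conj_xG isRootCharacter_inv dU_inv)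

variable {D : ChevalleyDatum} {K : Type*} [Field K]

variable {h : Tab D} {ax : Ax D K} {tw : Tw h ax} {G1 : Subgroup (GL D.Idx K)}

/-- The data of the root elements of the classes. -/
structure CD (T : TD h ax tw G1) where
  /-- the field of the class -/
  F : T.ι → Subfield K
  /-- the root elements -/
  X : ∀ j, F j → GL D.Idx K
  /-- the root elements of the negatives -/
  Y : ∀ j, F j → GL D.Idx K
  rel : ∀ j, RankOneRel (X j) (Y j)
  X_psi : ∀ j t, X j t ∈ rootClosure ax (Psi D (T.J j))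
  Y_npsi : ∀ j t, Y j t ∈ rootClosure ax (NPsi D (T.J j))
  X_G : ∀ j t, X j t ∈ G1
  Y_G : ∀ j t, Y j t ∈ G1
  X_surj : ∀ j g, g ∈ rootClosure ax (Psi D (T.J j)) → g ∈ G1 → ∃ t, g = X j t
  X_inj : ∀ j, Function.Injective (X j)
  H_mem : ∀ j t, t ≠ 0 → HH (X j) (Y j) t ∈ D.diagonalSubgroup K
  n_eq : ∀ j, T.n j = WW (X j) (Y j) 1
  gen : G1 ≤ Subgroup.closure ({g | ∃ j t, g = X j t} ∪ {g | ∃ j t, g = Y j t})
  disj : ∀ a b i, i < D.rank → T.J a i → T.J b i → a = b
  w0psi : ∀ j (r : Fin D.nroots), Psi D (T.J j) r → NPsi D (T.J j) (T.π₀ r)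
  w0invol : ∀ r, T.π₀ (T.π₀ r) = r
  /-- the class with the full field -/
  base : T.ι
  F_base : ∀ t : K, t ∈ F base
  /-- the edges along which the field automorphisms are compared -/
  Edge : T.ι → T.ι → Prop
  edge_le : ∀ i k, Edge i k → F i ≤ F k
  edge_conj : ∀ i k, Edge i k → ∀ (t : F i) (s u : F k), t ≠ 0 → (u : K) = (t : K)⁻¹ * s →
    HH (X i) (Y i) t * X k s * (HH (X i) (Y i) t)⁻¹ = X k u
  reach : ∀ P : T.ι → Prop, P base → (∀ i k, Edge i k → P k → P i) → ∀ j, P j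
  rigid : ∀ π : T.ι → T.ι, (∀ j, Nat.card (F j) = Nat.card (F (π j))) →
    (∀ j k, (∀ s t, Commute (X j s) (X k t)) ↔ (∀ s t, Commute (X (π j) s) (X (π k) t))) → ∀ j, π j = j
  F_map : ∀ (τ : K ≃+* K) j (t : K), t ∈ F j → τ t ∈ F j
  X_map : ∀ (τ : K ≃+* K) j (t u : F j), (u : K) = τ t →
    Cfsg.Agent.Lib.KS71.ChevFix.mapX D (τ : K →+* K) (X j t) = X j u
  Y_map : ∀ (τ : K ≃+* K) j (t u : F j), (u : K) = τ t →
    Cfsg.Agent.Lib.KS71.ChevFix.mapX D (τ : K →+* K) (Y j t) = Y j u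
  diag : ∀ c : (∀ j, (F j)ˣ), ∃ χ : ℕ → Kˣ, D.IsRootCharacter χ ∧
    (∀ j (t u : F j), (u : K) = ((c j : F j) : K) * t → dU D K χ * X j t * (dU D K χ)⁻¹ = X j u) ∧
    (∀ j (t u : F j), (u : K) = ((c j : F j) : K)⁻¹ * t → dU D K χ * Y j t * (dU D K χ)⁻¹ = Y j u)

variable {T : TD h ax tw G1} (C : CD T) (h2 : Tab2 D)

namespace CD

/-- The root element in `G¹`. -/
def Xg (j : T.ι) (t : C.F j) : ↥G1 := ⟨C.X j t, C.X_G j t⟩

/-- The negative root element in `G¹`. -/
def Yg (j : T.ι) (t : C.F j) : ↥G1 := ⟨C.Y j t, C.Y_G j t⟩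

@[simp] lemma Xg_coe (j : T.ι) (t : C.F j) : ((C.Xg j t : ↥G1) : GL D.Idx K) = C.X j t := rfl
@[simp] lemma Yg_coe (j : T.ι) (t : C.F j) : ((C.Yg j t : ↥G1) : GL D.Idx K) = C.Y j t := rfl

lemma WWg_coe (j : T.ι) (t : C.F j) : ((WW (C.Xg j) (C.Yg j) t : ↥G1) : GL D.Idx K) = WW (C.X j) (C.Y j) t := rfl
lemma HHg_coe (j : T.ι) (t : C.F j) : ((HH (C.Xg j) (C.Yg j) t : ↥G1) : GL D.Idx K) = HH (C.X j) (C.Y j) t := rfl

/-- The rank one relations in `G¹`. -/
lemma relg (j : T.ι) : RankOneRel (C.Xg j) (C.Yg j) := by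
  have R := C.rel j
  refine ⟨fun a b => Subtype.ext (R.X_add a b), fun a b => Subtype.ext (R.Y_add a b),
    fun t u ht => Subtype.ext (R.conj_X t u ht), fun t u ht => Subtype.ext (R.conj_Y t u ht),
    fun a b ha hb => Subtype.ext (R.H_mul a b ha hb)⟩

lemma Xg_inj (j : T.ι) : Function.Injective (C.Xg j) := fun a b e => C.X_inj j (congrArg Subtype.val e)

lemma Xg_U (j : T.ι) (t : C.F j) : C.Xg j t ∈ U1 D K G1 := by
  rw [Subgroup.mem_subgroupOf]
  exact psi_le_U ax _ (C.X_psi j t)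

lemma Yg_V (j : T.ι) (t : C.F j) : C.Yg j t ∈ V1 D K G1 := by
  rw [Subgroup.mem_subgroupOf]
  exact npsi_le_V h ax _ (C.Y_npsi j t)

lemma Hg_H (j : T.ι) (t : C.F j) (ht : t ≠ 0) : HH (C.Xg j) (C.Yg j) t ∈ H1 D K G1 := by
  rw [Subgroup.mem_subgroupOf]
  exact C.H_mem j t ht

omit C in
lemma U1_inf_H1 (h : Tab D) (ax : Ax D K) (u : ↥G1) (hU : u ∈ U1 D K G1) (hH : u ∈ H1 D K G1) : u = 1 := by
  have : (u : GL D.Idx K) ∈ D.posUnipotent K ⊓ D.diagonalSubgroup K := ⟨hU, hH⟩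
  rw [U_inf_H ax h, Subgroup.mem_bot] at this
  exact Subtype.ext this

include C h2 in
/-- `n_j` lies in the ambient parabolic subgroup. -/
lemma nP (j : T.ι) : T.n j ∈ D.parabolicSubgroup K {i | T.J j i} := by
  rw [C.n_eq j]
  have hX : ∀ t, C.X j t ∈ D.parabolicSubgroup K {i | T.J j i} := fun t =>
    borel_le_parabolic h h2 ax _ ((le_sup_left : D.posUnipotent K ≤ D.borelSubgroup K) (psi_le_U ax _ (C.X_psi j t)))
  have hY : ∀ t, C.Y j t ∈ D.parabolicSubgroup K {i | T.J j i} := by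
    intro t
    rw [parabolic_eq h h2 ax]
    apply (le_sup_right : _ ≤ D.diagonalSubgroup K ⊔ _)
    refine rootClosure_mono ax (fun r hr => ?_) (C.Y_npsi j t)
    right
    have hp : Psi D (T.J j) (D.neg r) := hr.2
    rw [inRootSub_iff h hr.1]
    intro i hi hiJ
    have := hp.2 i hi hiJ
    rw [h.coef_neg _ hr.1 i hi] at this
    simpa using this
  exact Subgroup.mul_mem _ (Subgroup.mul_mem _ (hX _) (hY _)) (hX _)

include C h2 in
/-- The data for the longest element. -/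
lemma w0 : W0 T := ⟨C.nP h2, C.w0psi, C.w0invol⟩

lemma XS_iff (j : T.ι) (u : ↥G1) : u ∈ XS T j ↔ ∃ t, u = C.Xg j t := by
  constructor
  · intro hu
    obtain ⟨t, ht⟩ := C.X_surj j u hu u.2
    exact ⟨t, Subtype.ext ht⟩
  · rintro ⟨t, rfl⟩
    exact C.X_psi j t

lemma YS_iff (j : T.ι) (u : ↥G1) : u ∈ YS T j ↔ ∃ t, u = C.Yg j t := by
  constructor
  · intro hu
    have hu' : (u : GL D.Idx K) ∈ rootClosure ax (NPsi D (T.J j)) := hu
    have h1 := T.n_inv_conj_npsi j hu'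
    set s : ↥G1 := ⟨T.n j, T.n_mem j⟩ with hs
    obtain ⟨t, ht⟩ := C.X_surj j _ h1 (s⁻¹ * u * s).2
    have e0 : s = WW (C.Xg j) (C.Yg j) 1 := Subtype.ext (C.n_eq j)
    have e1 : s⁻¹ * u * s = C.Xg j t := Subtype.ext ht
    have e2 : u = s * C.Xg j t * s⁻¹ := by rw [← e1]; group
    refine ⟨-((1 : C.F j)⁻¹ ^ 2 * t), ?_⟩
    rw [e2, e0, (C.relg j).conj_X 1 t one_ne_zero]
  · rintro ⟨t, rfl⟩
    exact C.Y_npsi j t

include C in
/-- Elements of two different class root subgroups commute. -/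
lemma xG_comm_disj {a b : T.ι} (hab : a ≠ b) {r s : ℕ} (hr : Psi D (T.J a) r) (hs : NPsi D (T.J b) s) (t u : K) :
    Commute (xG ax s u) (xG ax r t) := by
  have hr0 := hr.1.1
  have hs0 := hs.1
  have hsp : Psi D (T.J b) (D.neg s) := hs.2
  obtain ⟨k₀, hk₀, hc₀⟩ : ∃ k, k < D.rank ∧ 0 < coef D r k := by
    by_contra hno
    push Not at hno
    have := ht_pos h hr.1
    rw [ht, lin] at this
    have h3 : ∑ i ∈ Finset.range D.rank, (1 : ℤ) * coef D r i ≤ 0 :=
      Finset.sum_nonpos fun i hi => by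
        rw [one_mul]
        exact hno i (Finset.mem_range.mp hi)
    simp only [one_mul] at this h3
    omega
  obtain ⟨k₁, hk₁, hc₁⟩ : ∃ k, k < D.rank ∧ 0 < coef D (D.neg s) k := by
    by_contra hno
    push Not at hno
    have := ht_pos h hsp.1
    rw [ht, lin] at this
    have h3 : ∑ i ∈ Finset.range D.rank, (1 : ℤ) * coef D (D.neg s) i ≤ 0 :=
      Finset.sum_nonpos fun i hi => by
        rw [one_mul]
        exact hno i (Finset.mem_range.mp hi)
    simp only [one_mul] at this h3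
    omega
  have hJa : T.J a k₀ := by
    by_contra hn
    have := hr.2 k₀ hk₀ hn
    omega
  have hJb : T.J b k₁ := by
    by_contra hn
    have := hsp.2 k₁ hk₁ hn
    omega
  have hnJb : ¬ T.J b k₀ := fun hn => hab (C.disj a b k₀ hk₀ hJa hn)
  have hnJa : ¬ T.J a k₁ := fun hn => hab (C.disj a b k₁ hk₁ hn hJb)
  have c1 : coef D (D.neg s) k₀ = 0 := hsp.2 k₀ hk₀ hnJb
  have c2 : coef D r k₁ = 0 := hr.2 k₁ hk₁ hnJa
  have c3 : coef D s k₀ = 0 := by
    have := h.coef_neg s hs0 k₀ hk₀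
    rw [c1] at this
    omega
  have c4 : coef D s k₁ < 0 := by
    have := h.coef_neg s hs0 k₁ hk₁
    rw [this] at hc₁
    omega
  have hne1 : s ≠ r := by
    rintro rfl
    omega
  have hne2 : s ≠ D.neg r := by
    intro e
    have e2 : D.neg s = r := by rw [e, h.neg_neg r hr0]
    rw [e2] at c1
    omega
  have hnil : D.commWord K r s t u = [] := by
    rw [List.eq_nil_iff_forall_not_mem]
    intro p hp
    obtain ⟨hlt, i, j, hi, hj, hv⟩ := commWord_spec h hr0 hs0 hp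
    have h1 := hv k₀ hk₀
    have h5 := hv k₁ hk₁
    rw [c3] at h1
    rw [c2] at h5
    have hi' : (1 : ℤ) ≤ i := by exact_mod_cast hi
    have hj' : (1 : ℤ) ≤ j := by exact_mod_cast hj
    have h6 : 0 < coef D p.1 k₀ := by
      rw [h1]
      nlinarith
    have h7 : coef D p.1 k₁ < 0 := by
      rw [h5]
      nlinarith
    rcases h.sign _ hlt with h8 | h8
    · have := h8 k₁ hk₁
      omega
    · have := h8 k₀ hk₀
      omega
  have := xG_comm ax hr0 hs0 hne1 hne2 t u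
  rw [hnil] at this
  have e : xG ax s u * xG ax r t = xG ax r t * xG ax s u := by simpa [wordG_nil] using this
  exact e

omit C in
/-- Closures commute if their generators do. -/
lemma closure_comm {P Q : ℕ → Prop} (hc : ∀ r s t u, P r → Q s → Commute (xG ax s u) (xG ax r t))
    {x y : GL D.Idx K} (hx : x ∈ rootClosure ax P) (hy : y ∈ rootClosure ax Q) : Commute y x := by
  refine rootClosure_induction ax (Q := fun x => Commute y x) (Commute.one_right _) ?_ (fun a b ha hb => ha.mul_right hb) hx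
  intro r t hr
  refine rootClosure_induction ax (Q := fun y => Commute y (xG ax r t)) (Commute.one_left _) ?_
    (fun a b ha hb => ha.mul_left hb) hy
  intro s u hs
  exact hc r s t u hr hs

/-- `X_a` and `Y_b` commute for different classes. -/
lemma XY_comm {a b : T.ι} (hab : a ≠ b) (s : C.F a) (t : C.F b) : Commute (C.Xg a s) (C.Yg b t) := by
  have : Commute (C.Y b t) (C.X a s) := closure_comm
    (fun r s' t' u hr hs => xG_comm_disj C hab hr hs t' u) (C.X_psi a s) (C.Y_npsi b t)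
  exact Subtype.ext this.symm.eq

/-- `X_a` and `Y_a` do not commute. -/
lemma XY_not_comm (j : T.ι) : ¬ Commute (C.Xg j 1) (C.Yg j (-1)) := by
  intro hc
  have R := C.relg j
  have hw : WW (C.Xg j) (C.Yg j) 1 = C.Xg j 1 * C.Yg j (-1) * C.Xg j 1 := by
    simp [WW]
  have e1 := R.conj_X (1 : C.F j) 1 one_ne_zero
  have hcc : Commute (WW (C.Xg j) (C.Yg j) 1) (C.Xg j 1) := by
    rw [hw]
    exact ((Commute.refl _).mul_left hc.symm).mul_left (Commute.refl _)
  rw [hcc.eq] at e1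
  simp only [mul_inv_cancel_right, inv_one, one_pow, mul_one] at e1
  have h1 : C.Xg j 1 = 1 := U1_inf_V1 h ax _ (C.Xg_U j 1) (e1 ▸ C.Yg_V j _)
  have h3 : (1 : C.F j) = 0 := C.Xg_inj j (by rw [h1, (C.relg j).X_zero])
  exact one_ne_zero h3

end CD

end Cfsg.Agent.Lib.TwAut.Class
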