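import Cfsg.Agent.Lib.TwAut.Shape

/-!
# Automorphisms of twisted groups: the count of the outer automorphism group
-/

set_option autoImplicit false
set_option linter.unusedSectionVars false
set_option linter.unusedVariables false
set_option linter.ambiguousOpen false
set_option linter.dupNamespace false

namespace Cfsg.Agent.Lib.TwAut.Class

open scoped MatrixGroups Matrix
open Cfsg Lie ChevalleyDatum
open Cfsg.Agent.Lib.Chev
open Tables Tables2 Tables3 Raise Basic AxBasic Torus Products Products2 Mono1 Mono2 Mono3 Bn Parab Unipotent SL2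
open Cfsg.Agent.Lib.Twisted.Fact Cfsg.Agent.Lib.Twisted.Bruhat Cfsg.Agent.Lib.Twisted.Tw
open Cfsg.Agent.Lib.Twisted.Struct
open Cfsg.Agent.Lib.TwAut.Norm Cfsg.Agent.Lib.TwAut.Perm
open Cfsg.Agent.Lib.KS71.ChevFix (mapX mapX_U mapX_rootClosure coe_mapX)
open Cfsg.Agent.Lib.Steinberg.AutExist (dU dU_conj_xG isRootCharacter_inv dU_inv)
open Cfsg.Agent.Lib.Lie.Facts (IsData)

variable {D : ChevalleyDatum} {K : Type*} [Field K]

variable {h : Tab D} {ax : Ax D K} {tw : Tw h ax} {G1 : Subgroup (GL D.Idx K)}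

variable {T : TD h ax tw G1} (C : CD T)

namespace CD

lemma G1_le {S : Subgroup (GL D.Idx K)} (hX : ∀ j t, C.X j t ∈ S) (hY : ∀ j t, C.Y j t ∈ S) : G1 ≤ S := by
  refine C.gen.trans ?_
  rw [Subgroup.closure_le]
  rintro g (⟨j, t, rfl⟩ | ⟨j, t, rfl⟩)
  · exact hX j t
  · exact hY j t

/-- Automorphisms agreeing on the root elements of the classes are equal. -/
lemma aut_ext {σ₁ σ₂ : ↥G1 ≃* ↥G1} (hX : ∀ j t, σ₁ (C.Xg j t) = σ₂ (C.Xg j t)) (hY : ∀ j t, σ₁ (C.Yg j t) = σ₂ (C.Yg j t)) :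
    σ₁ = σ₂ := by
  have hle : G1 ≤ ((σ₁.toMonoidHom).eqLocus σ₂.toMonoidHom).map G1.subtype := by
    apply C.G1_le
    · intro j t
      exact ⟨C.Xg j t, hX j t, rfl⟩
    · intro j t
      exact ⟨C.Yg j t, hY j t, rfl⟩
  apply MulEquiv.ext
  intro g
  obtain ⟨g', hg', e⟩ := hle g.2
  have : g' = g := Subtype.ext e
  rw [← this]
  exact hg'

include C in
/-- The field automorphism maps `G¹` into itself. -/
lemma mapX_mem (τ : K ≃+* K) {g : GL D.Idx K} (hg : g ∈ G1) : mapX D (τ : K →+* K) g ∈ G1 := by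
  have hle : G1 ≤ G1.comap (mapX D (τ : K →+* K)) := by
    apply C.G1_le
    · intro j t
      rw [Subgroup.mem_comap, C.X_map τ j t ⟨τ t, C.F_map τ j t t.2⟩ rfl]
      exact C.X_G j _
    · intro j t
      rw [Subgroup.mem_comap, C.Y_map τ j t ⟨τ t, C.F_map τ j t t.2⟩ rfl]
      exact C.Y_G j _
  exact hle hg

/-- The field automorphism of `G¹`. -/
noncomputable def fieldG (τ : K ≃+* K) : ↥G1 ≃* ↥G1 where
  toFun g := ⟨mapX D (τ : K →+* K) g.1, mapX_mem C τ g.2⟩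
  invFun g := ⟨mapX D (τ.symm : K →+* K) g.1, mapX_mem C τ.symm g.2⟩
  left_inv g := by
    apply Subtype.ext
    apply Units.ext
    ext a b
    simp
  right_inv g := by
    apply Subtype.ext
    apply Units.ext
    ext a b
    simp
  map_mul' a b := by
    apply Subtype.ext
    simp

lemma fieldG_val (τ : K ≃+* K) (g : ↥G1) : ((C.fieldG τ g : ↥G1) : GL D.Idx K) = mapX D (τ : K →+* K) g := rfl

lemma fieldG_symm_val (τ : K ≃+* K) (g : ↥G1) :
    (((C.fieldG τ).symm g : ↥G1) : GL D.Idx K) = mapX D (τ.symm : K →+* K) g := rfl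

lemma fieldG_X (τ : K ≃+* K) (j : T.ι) (t u : C.F j) (hu : (u : K) = τ t) : C.fieldG τ (C.Xg j t) = C.Xg j u :=
  Subtype.ext (C.X_map τ j t u hu)

lemma fieldG_Y (τ : K ≃+* K) (j : T.ι) (t u : C.F j) (hu : (u : K) = τ t) : C.fieldG τ (C.Yg j t) = C.Yg j u :=
  Subtype.ext (C.Y_map τ j t u hu)

lemma fieldG_U (τ : K ≃+* K) (u : ↥G1) : u ∈ U1 D K G1 ↔ C.fieldG τ u ∈ U1 D K G1 := by
  rw [Subgroup.mem_subgroupOf, Subgroup.mem_subgroupOf, fieldG_val]
  constructor
  · exact mapX_U ax ax _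
  · intro hu
    have := mapX_U ax ax (τ.symm : K →+* K) hu
    have e : mapX D (τ.symm : K →+* K) (mapX D (τ : K →+* K) (u : GL D.Idx K)) = u := by
      apply Units.ext
      ext a b
      simp
    rwa [e] at this

lemma fieldG_V (τ : K ≃+* K) (u : ↥G1) : u ∈ V1 D K G1 ↔ C.fieldG τ u ∈ V1 D K G1 := by
  rw [Subgroup.mem_subgroupOf, Subgroup.mem_subgroupOf, fieldG_val, negUnipotent_eq ax]
  constructor
  · exact mapX_rootClosure ax ax _
  · intro hu
    have := mapX_rootClosure ax ax (τ.symm : K →+* K) hu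
    have e : mapX D (τ.symm : K →+* K) (mapX D (τ : K →+* K) (u : GL D.Idx K)) = u := by
      apply Units.ext
      ext a b
      simp
    rwa [e] at this

section diag

variable (hD : IsData D) (c : ∀ j, (C.F j)ˣ)

/-- The character of a tuple. -/
noncomputable def chi : ℕ → Kˣ := Classical.choose (C.diag c)

lemma chi_spec : D.IsRootCharacter (C.chi c) ∧
    (∀ j (t u : C.F j), (u : K) = ((c j : C.F j) : K) * t → dU D K (C.chi c) * C.X j t * (dU D K (C.chi c))⁻¹ = C.X j u) ∧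
    (∀ j (t u : C.F j), (u : K) = ((c j : C.F j) : K)⁻¹ * t → dU D K (C.chi c) * C.Y j t * (dU D K (C.chi c))⁻¹ = C.Y j u) :=
  Classical.choose_spec (C.diag c)

/-- The diagonal element of a tuple. -/
noncomputable def dg : GL D.Idx K := dU D K (C.chi c)

lemma hne (j : T.ι) : ((c j : C.F j) : K) ≠ 0 := by
  have := (c j).ne_zero
  simp

lemma dg_conj_X (j : T.ι) (t u : C.F j) (hu : (u : K) = ((c j : C.F j) : K) * t) :
    C.dg c * C.X j t * (C.dg c)⁻¹ = C.X j u := (C.chi_spec c).2.1 j t u hu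

lemma dg_conj_Y (j : T.ι) (t u : C.F j) (hu : (u : K) = ((c j : C.F j) : K)⁻¹ * t) :
    C.dg c * C.Y j t * (C.dg c)⁻¹ = C.Y j u := (C.chi_spec c).2.2 j t u hu

lemma dg_inv_conj_X (j : T.ι) (t u : C.F j) (hu : (t : K) = ((c j : C.F j) : K) * u) :
    (C.dg c)⁻¹ * C.X j t * C.dg c = C.X j u := by
  rw [← C.dg_conj_X c j u t hu]
  group

lemma dg_inv_conj_Y (j : T.ι) (t u : C.F j) (hu : (t : K) = ((c j : C.F j) : K)⁻¹ * u) :
    (C.dg c)⁻¹ * C.Y j t * C.dg c = C.Y j u := by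
  rw [← C.dg_conj_Y c j u t hu]
  group

lemma dg_mem {g : GL D.Idx K} (hg : g ∈ G1) : C.dg c * g * (C.dg c)⁻¹ ∈ G1 := by
  have hle : G1 ≤ G1.comap (MulAut.conj (C.dg c)).toMonoidHom := by
    apply C.G1_le
    · intro j t
      rw [Subgroup.mem_comap]
      show C.dg c * C.X j t * (C.dg c)⁻¹ ∈ G1
      rw [C.dg_conj_X c j t ((c j : C.F j) * t) rfl]
      exact C.X_G j _
    · intro j t
      rw [Subgroup.mem_comap]
      show C.dg c * C.Y j t * (C.dg c)⁻¹ ∈ G1
      rw [C.dg_conj_Y c j t ((c j : C.F j)⁻¹ * t) (by simp)]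
      exact C.Y_G j _
  exact hle hg

lemma dg_inv_mem {g : GL D.Idx K} (hg : g ∈ G1) : (C.dg c)⁻¹ * g * C.dg c ∈ G1 := by
  have hle : G1 ≤ G1.comap (MulAut.conj (C.dg c)⁻¹).toMonoidHom := by
    apply C.G1_le
    · intro j t
      rw [Subgroup.mem_comap]
      show (C.dg c)⁻¹ * C.X j t * (C.dg c)⁻¹⁻¹ ∈ G1
      rw [inv_inv, C.dg_inv_conj_X c j t ((c j : C.F j)⁻¹ * t) (by
        have := C.hne c j
        simp)]
      exact C.X_G j _
    · intro j t
      rw [Subgroup.mem_comap]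
      show (C.dg c)⁻¹ * C.Y j t * (C.dg c)⁻¹⁻¹ ∈ G1
      rw [inv_inv, C.dg_inv_conj_Y c j t ((c j : C.F j) * t) (by
        have := C.hne c j
        simp)]
      exact C.Y_G j _
  exact hle hg

/-- The diagonal automorphism of `G¹`. -/
noncomputable def diagG : ↥G1 ≃* ↥G1 where
  toFun g := ⟨C.dg c * g * (C.dg c)⁻¹, C.dg_mem c g.2⟩
  invFun g := ⟨(C.dg c)⁻¹ * g * C.dg c, C.dg_inv_mem c g.2⟩
  left_inv g := by
    apply Subtype.ext
    simp only
    group
  right_inv g := by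
    apply Subtype.ext
    simp only
    group
  map_mul' a b := by
    apply Subtype.ext
    simp only [Subgroup.coe_mul]
    group

lemma diagG_val (g : ↥G1) : ((C.diagG c g : ↥G1) : GL D.Idx K) = C.dg c * g * (C.dg c)⁻¹ := rfl

lemma diagG_X (j : T.ι) (t u : C.F j) (hu : (u : K) = ((c j : C.F j) : K) * t) : C.diagG c (C.Xg j t) = C.Xg j u :=
  Subtype.ext (C.dg_conj_X c j t u hu)

lemma diagG_Y (j : T.ι) (t u : C.F j) (hu : (u : K) = ((c j : C.F j) : K)⁻¹ * t) : C.diagG c (C.Yg j t) = C.Yg j u :=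
  Subtype.ext (C.dg_conj_Y c j t u hu)

include hD in
lemma dU_conj_closure {χ : ℕ → Kˣ} (hχ : D.IsRootCharacter χ) {P : ℕ → Prop} (hP : ∀ r, P r → r < D.nroots)
    {g : GL D.Idx K} (hg : g ∈ rootClosure ax P) : dU D K χ * g * (dU D K χ)⁻¹ ∈ rootClosure ax P := by
  have hle : rootClosure ax P ≤ (rootClosure ax P).comap (MulAut.conj (dU D K χ)).toMonoidHom := by
    apply rootClosure_le
    intro r t hr
    rw [Subgroup.mem_comap]
    show dU D K χ * xG ax r t * (dU D K χ)⁻¹ ∈ _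
    rw [dU_conj_xG hD ax hχ (hP r hr)]
    exact xG_mem_rootClosure ax hr _
  exact hle hg

include hD in
lemma dU_conj_iff {χ : ℕ → Kˣ} (hχ : D.IsRootCharacter χ) {P : ℕ → Prop} (hP : ∀ r, P r → r < D.nroots)
    {g : GL D.Idx K} : g ∈ rootClosure ax P ↔ dU D K χ * g * (dU D K χ)⁻¹ ∈ rootClosure ax P := by
  refine ⟨dU_conj_closure hD hχ hP, fun hg => ?_⟩
  have := dU_conj_closure hD (isRootCharacter_inv hχ) hP hg
  rw [← dU_inv, inv_inv] at this
  simpa [mul_assoc] using this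

include hD in
lemma diagG_U (u : ↥G1) : u ∈ U1 D K G1 ↔ C.diagG c u ∈ U1 D K G1 := by
  rw [Subgroup.mem_subgroupOf, Subgroup.mem_subgroupOf, diagG_val, posUnipotent_eq ax]
  exact dU_conj_iff hD (C.chi_spec c).1 (fun r hr => hr.1)

include hD in
lemma diagG_V (u : ↥G1) : u ∈ V1 D K G1 ↔ C.diagG c u ∈ V1 D K G1 := by
  rw [Subgroup.mem_subgroupOf, Subgroup.mem_subgroupOf, diagG_val, negUnipotent_eq ax]
  exact dU_conj_iff hD (C.chi_spec c).1 (fun r hr => hr.1)

/-- The automorphism of a pair. -/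
noncomputable def autOf (τ : K ≃+* K) : ↥G1 ≃* ↥G1 := (C.fieldG τ).trans (C.diagG c)

lemma autOf_X (τ : K ≃+* K) (j : T.ι) (t u : C.F j) (hu : (u : K) = ((c j : C.F j) : K) * τ t) :
    C.autOf c τ (C.Xg j t) = C.Xg j u := by
  simp only [autOf, MulEquiv.trans_apply]
  rw [C.fieldG_X τ j t ⟨τ t, C.F_map τ j t t.2⟩ rfl]
  exact C.diagG_X c j _ u hu

lemma autOf_Y (τ : K ≃+* K) (j : T.ι) (t u : C.F j) (hu : (u : K) = ((c j : C.F j) : K)⁻¹ * τ t) :
    C.autOf c τ (C.Yg j t) = C.Yg j u := by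
  simp only [autOf, MulEquiv.trans_apply]
  rw [C.fieldG_Y τ j t ⟨τ t, C.F_map τ j t t.2⟩ rfl]
  exact C.diagG_Y c j _ u hu

include hD in
lemma autOf_mem (τ : K ≃+* K) : C.autOf c τ ∈ Abs.normSub (U1 D K G1) (V1 D K G1) := by
  refine ⟨fun u => ?_, fun v => ?_⟩
  · rw [C.fieldG_U τ u, C.diagG_U hD c]
    rfl
  · rw [C.fieldG_V τ v, C.diagG_V hD c]
    rfl

end diag

variable (h2 : Tab2 D)

include h2 in
/-- The count of the automorphisms preserving `U¹` and `V¹`. -/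
theorem card_normSub [Finite K] (hD : IsData D) :
    Nat.card (Abs.normSub (U1 D K G1) (V1 D K G1)) = Nat.card (K ≃+* K) * Nat.card (∀ j, (C.F j)ˣ) := by
  classical
  rw [← Nat.card_prod]
  symm
  refine Nat.card_congr (Equiv.ofBijective (fun x : (K ≃+* K) × (∀ j, (C.F j)ˣ) =>
    (⟨C.autOf x.2 x.1, C.autOf_mem hD x.2 x.1⟩ : Abs.normSub (U1 D K G1) (V1 D K G1))) ⟨?_, ?_⟩)
  · rintro ⟨τ, c⟩ ⟨τ', c'⟩ e
    have e0 : C.autOf c τ = C.autOf c' τ' := congrArg Subtype.val e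
    have hc : c = c' := by
      funext j
      apply Units.ext
      have e1 := DFunLike.congr_fun e0 (C.Xg j 1)
      rw [C.autOf_X c τ j 1 (c j : C.F j) (by simp), C.autOf_X c' τ' j 1 (c' j : C.F j) (by simp)] at e1
      exact C.Xg_inj j e1
    subst hc
    have hτ : τ = τ' := by
      apply RingEquiv.ext
      intro t
      set b := C.base
      have hb := C.F_base
      have e1 := DFunLike.congr_fun e0 (C.Xg b ⟨t, hb t⟩)
      rw [C.autOf_X c τ b _ (⟨_, hb _⟩) rfl, C.autOf_X c τ' b _ (⟨_, hb _⟩) rfl] at e1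
      have e2 := congrArg Subtype.val (C.Xg_inj b e1)
      simp only at e2
      exact mul_left_cancel₀ (C.hne c b) e2
    subst hτ
    rfl
  · rintro ⟨σ, hU, hV⟩
    obtain ⟨τ, c, hs⟩ := C.exists_shape h2 (σ := σ) hU hV
    refine ⟨(τ, c), ?_⟩
    apply Subtype.ext
    apply C.aut_ext
    · intro j t
      set u : C.F j := ⟨((c j : C.F j) : K) * τ t, Subfield.mul_mem _ (c j : C.F j).2 (C.F_map τ j t t.2)⟩ with hu
      show C.autOf c τ (C.Xg j t) = σ (C.Xg j t)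
      rw [C.autOf_X c τ j t u rfl, (hs j t u).1 rfl]
    · intro j t
      set u : C.F j := ⟨((c j : C.F j) : K)⁻¹ * τ t, Subfield.mul_mem _ (Subfield.inv_mem _ (c j : C.F j).2) (C.F_map τ j t t.2)⟩ with hu
      show C.autOf c τ (C.Yg j t) = σ (C.Yg j t)
      rw [C.autOf_Y c τ j t u rfl, (hs j t u).2 rfl]

include h2 in
/-- The count of the outer automorphism group. -/
theorem card_out [Finite K] (hD : IsData D) (hc : Subgroup.center ↥G1 = ⊥) :
    Nat.card (H1 D K G1) * Nat.card (Out ↥G1) = Nat.card (K ≃+* K) * Nat.card (∀ j, (C.F j)ˣ) := by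
  rw [← C.card_normSub h2 hD]
  exact Abs.card_out hc (H1 D K G1) (mem_H_iff T h2) (exists_normalized T h2)

end CD

end Cfsg.Agent.Lib.TwAut.Class
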