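import Cfsg.Agent.Lib.TwAut.Inst
import Cfsg.Agent.Lib.Twisted.D4S
import Cfsg.Agent.Lib.Twisted.D4H

/-!
# The outer automorphism group of ³D₄(q)
-/

set_option autoImplicit false
set_option linter.unusedSectionVars false
set_option linter.unusedVariables false
set_option linter.ambiguousOpen false
set_option linter.dupNamespace false

namespace Cfsg.Agent.Lib.TwAut.D4Aut

open scoped MatrixGroups Matrix
open Cfsg Lie ChevalleyDatum
open Cfsg.Agent.Lib.Chev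
open Tables Tables2 Tables3 Raise Basic AxBasic Torus Products Products2 Mono1 Mono2 Mono3 Bn Parab Unipotent SL2 SL2Chev
open Cfsg.Agent.Lib.Twisted.Fact Cfsg.Agent.Lib.Twisted.Tw Cfsg.Agent.Lib.Twisted.Struct
open Cfsg.Agent.Lib.Twisted.Check Cfsg.Agent.Lib.Twisted.Ortho Cfsg.Agent.Lib.Twisted.Perf
open Cfsg.Agent.Lib.Twisted.D4
open Cfsg.Agent.Lib.TwAut.Rank1 Cfsg.Agent.Lib.TwAut.Orbit Cfsg.Agent.Lib.TwAut.Norm Cfsg.Agent.Lib.TwAut.Class
open Cfsg.Agent.Lib.TwAut.Inst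
open Cfsg.Agent.Lib.KS71.ChevFix (mapX)
open Cfsg.Agent.Lib.Steinberg.AutExist (dU psiN isRootCharacter_psiN psiN_simple)

variable {K : Type*} [Field K] {q : ℕ}

/-- The roots of the classes. -/
def Ld : Fin 2 → List ℕ
  | 0 => [14]
  | 1 => [18, 13, 12]

/-- The fields of the classes. -/
def Fd (φ : K ≃+* K) : Fin 2 → Subfield K
  | 0 => fixF φ
  | 1 => ⊤

theorem good : ∀ j, Good chevD4 (Ld j) := by decide +kernel

theorem psi_all : ∀ j, ∀ r ∈ Ld j, psiB chevD4 (Cd.cls j) r = true := by decide +kernel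

theorem w0_psi : ∀ (j : Fin 2) (r : Fin chevD4.nroots), psiB chevD4 (Cd.cls j) r = true →
    psiB chevD4 (Cd.cls j) (chevD4.neg (wWord chevD4 (Cd.flat Cd.L₀) r)) = true := by decide +kernel

theorem w0_lt : ∀ r : Fin chevD4.nroots, wWord chevD4 (Cd.flat Cd.L₀) r < chevD4.nroots := by decide +kernel

theorem w0_invol : ∀ r : Fin chevD4.nroots, wWord chevD4 (Cd.flat Cd.L₀) (wWord chevD4 (Cd.flat Cd.L₀) r) = r := by
  decide +kernel

theorem flat_lt : ∀ i ∈ Cd.flat Cd.L₀, i < chevD4.rank := by decide +kernel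

theorem wl_simple : ∀ j, (Cd.wl j).map chevD4.simple = Ld j := by decide +kernel

section Fix

variable (φ : K ≃+* K) (hφ : ∀ t, φ t = t ^ q) (hφ3 : ∀ t, φ (φ (φ t)) = t) (ax : Ax chevD4 K)

include hφ hφ3

lemma prod1 (a : ℕ) (t : K) : prodL ax φ [a] t = xG ax a t := by simp

lemma prod3 (a b c : ℕ) (t : K) :
    prodL ax φ [a, b, c] t = xG ax a t * xG ax b (t ^ q) * xG ax c (t ^ (q ^ 2)) := by
  rw [pow_qq φ hφ hφ3, ← hφ]
  simp [mul_assoc]

lemma X_mem (j : Fin 2) (t : Fd φ j) : prodL ax φ (Ld j) t ∈ twistedD4 K q := by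
  match j, t with
  | 0, t =>
    show prodL ax φ [14] t ∈ _
    rw [prod1 φ hφ hφ3]
    exact mem_single ax (by decide) (by rw [← hφ]; exact t.2)
  | 1, t =>
    show prodL ax φ [18, 13, 12] t ∈ _
    rw [prod3 φ hφ hφ3]
    exact mem_triple (rs := (18, 13, 12)) ax (by decide) _

lemma Y_mem (j : Fin 2) (t : Fd φ j) : prodL ax φ (negL chevD4 (Ld j)) t ∈ twistedD4 K q := by
  match j, t with
  | 0, t =>
    have e : negL chevD4 (Ld 0) = [9] := by decide +kernel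
    rw [e, prod1 φ hφ hφ3]
    exact mem_single ax (by decide) (by rw [← hφ]; exact t.2)
  | 1, t =>
    have e : negL chevD4 (Ld 1) = [5, 10, 11] := by decide +kernel
    rw [e, prod3 φ hφ hφ3]
    exact mem_triple (rs := (5, 10, 11)) ax (by decide) _

omit hφ3 in
lemma tau_comm (τ : K ≃+* K) (t : K) : τ (φ t) = φ (τ t) := by
  rw [hφ, hφ, map_pow]

omit hφ hφ3 in
lemma psi_of_mem (j : Fin 2) {r : ℕ} (hr : r ∈ Ld j) : Psi chevD4 (· ∈ Cd.cls j) r :=
  psiB_iff.mp (psi_all j r hr)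

omit hφ hφ3 in
lemma npsi_of_mem (j : Fin 2) {r : ℕ} (hr : r ∈ negL chevD4 (Ld j)) : NPsi chevD4 (· ∈ Cd.cls j) r := by
  obtain ⟨s, hs, rfl⟩ := List.mem_map.mp hr
  have hp := psi_of_mem j hs
  refine ⟨hD.neg_lt _ hp.1.1, ?_⟩
  rwa [hD.neg_neg _ hp.1.1]

lemma surj0 (g : GL chevD4.Idx K) (hg : g ∈ rootClosure ax (Psi chevD4 (· ∈ Cd.cls 0))) (hG : g ∈ twistedD4 K q) :
    ∃ t : fixF φ, g = xG ax 14 t := by
  obtain ⟨x, rfl⟩ := exists_single hD ax (closure_of_check ax psi0 (P := fun r => r = 14) (by simp) hg)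
  have hs := (G1_le φ hφ hφ3 ax hG).2
  rw [s_xD φ ax (r := 14) (r' := 14) (by decide) (by decide +kernel) (by decide +kernel)] at hs
  exact ⟨⟨x, xG_inj hD hD2 ax (by decide) hs⟩, rfl⟩

lemma surj1 (g : GL chevD4.Idx K) (hg : g ∈ rootClosure ax (Psi chevD4 (· ∈ Cd.cls 1))) (hG : g ∈ twistedD4 K q) :
    ∃ t : K, g = xG ax 18 t * (xG ax 13 (φ t) * (xG ax 12 (φ (φ t)) * 1)) := by
  have H1 : CommPair chevD4 12 13 := by decide +kernel
  have H2 : CommPair chevD4 12 18 := by decide +kernel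
  have H3 : CommPair chevD4 13 18 := by decide +kernel
  obtain ⟨x, y, z, rfl⟩ := exists_triple ax H1 H2 H3
    (closure_of_check ax psi1 (P := fun r => r = 12 ∨ r = 13 ∨ r = 18) (by simp) hg)
  have hs := (G1_le φ hφ hφ3 ax hG).2
  rw [(twD φ ax).s_mul _ (Subgroup.mul_mem _ (xG_mem_group ax (by decide) x) (xG_mem_group ax (by decide) y)) _ (xG_mem_group ax (by decide) z),
    (twD φ ax).s_mul _ (xG_mem_group ax (by decide) x) _ (xG_mem_group ax (by decide) y),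
    s_xD φ ax (r := 12) (r' := 18) (by decide) (by decide +kernel) (by decide +kernel),
    s_xD φ ax (r := 13) (r' := 12) (by decide) (by decide +kernel) (by decide +kernel),
    s_xD φ ax (r := 18) (r' := 13) (by decide) (by decide +kernel) (by decide +kernel)] at hs
  have e : xG ax 18 (φ x) * xG ax 12 (φ y) * xG ax 13 (φ z) = xG ax 12 (φ y) * xG ax 13 (φ z) * xG ax 18 (φ x) := by
    have c1 := H2.comm ax (φ y) (φ x)
    have c2 := H3.comm ax (φ z) (φ x)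
    calc xG ax 18 (φ x) * xG ax 12 (φ y) * xG ax 13 (φ z) = xG ax 12 (φ y) * (xG ax 18 (φ x) * xG ax 13 (φ z)) := by rw [c1]; group
      _ = _ := by rw [c2]; group
  rw [e] at hs
  obtain ⟨h1, h3, h4⟩ := triple_unique hD hD2 ax (by decide) (by decide) (by decide)
    ⟨by decide, by decide +kernel, by decide +kernel⟩ hs
  -- `x = φ y`, `y = φ z`, `z = φ x`
  refine ⟨z, ?_⟩
  rw [h3, h1]
  have c1 := H2.comm ax x z
  have c2 := H3.comm ax y z
  have c3 := H1.comm ax x y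
  calc xG ax 12 x * xG ax 13 y * xG ax 18 z = xG ax 12 x * (xG ax 13 y * xG ax 18 z) := by group
    _ = (xG ax 12 x * xG ax 18 z) * xG ax 13 y := by rw [← c2]; group
    _ = xG ax 18 z * xG ax 12 x * xG ax 13 y := by rw [← c1]
    _ = xG ax 18 z * (xG ax 12 x * xG ax 13 y) := by group
    _ = xG ax 18 z * (xG ax 13 y * xG ax 12 x) := by rw [← c3]
    _ = _ := by group

omit hφ hφ3 in
lemma inj1 {t t' : K} (e : xG ax 18 t * (xG ax 13 (φ t) * (xG ax 12 (φ (φ t)) * 1)) =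
    xG ax 18 t' * (xG ax 13 (φ t') * (xG ax 12 (φ (φ t')) * 1))) : t = t' := by
  have H1 : CommPair chevD4 12 13 := by decide +kernel
  have H2 : CommPair chevD4 12 18 := by decide +kernel
  have H3 : CommPair chevD4 13 18 := by decide +kernel
  have key : ∀ x y z : K, xG ax 18 x * (xG ax 13 y * (xG ax 12 z * 1)) = xG ax 12 z * xG ax 13 y * xG ax 18 x := by
    intro x y z
    have c1 := H2.comm ax z x
    have c2 := H3.comm ax y x
    have c3 := H1.comm ax z y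
    calc xG ax 18 x * (xG ax 13 y * (xG ax 12 z * 1)) = (xG ax 18 x * xG ax 13 y) * xG ax 12 z := by group
      _ = (xG ax 13 y * xG ax 18 x) * xG ax 12 z := by rw [c2]
      _ = xG ax 13 y * (xG ax 18 x * xG ax 12 z) := by group
      _ = xG ax 13 y * (xG ax 12 z * xG ax 18 x) := by rw [c1]
      _ = (xG ax 13 y * xG ax 12 z) * xG ax 18 x := by group
      _ = _ := by rw [c3]
  rw [key, key] at e
  exact (triple_unique hD hD2 ax (by decide) (by decide) (by decide)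
    ⟨by decide, by decide +kernel, by decide +kernel⟩ e).2.2

omit hφ3 in
lemma tau_F (τ : K ≃+* K) (j : Fin 2) (t : K) (ht : t ∈ Fd φ j) : τ t ∈ Fd φ j := by
  match j, ht with
  | 0, ht =>
    show φ (τ t) = τ t
    rw [← tau_comm φ hφ]
    exact congrArg τ ht
  | 1, ht => exact Subfield.mem_top _

/-- The scalars of `h_{p₂}(t)`. -/
lemma scale01 (t : Kˣ) (ht : φ t = t) : ScaleOK ax φ (hG ax 14 (t : K) * 1) [18, 13, 12] ((t : K)⁻¹) := by
  have key : ∀ s : ℕ, s < chevD4.nroots → pair chevD4 14 s = -1 → ∀ v,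
      (hG ax 14 (t : K) * 1) * xG ax s v * (hG ax 14 (t : K) * 1)⁻¹ = xG ax s ((t : K)⁻¹ * v) := by
    intro s hs hp v
    rw [mul_one, hG_conj hD ax (by decide) hs, hp]
    simp
  have e : φ (t : K)⁻¹ = (t : K)⁻¹ := by rw [map_inv₀, ht]
  refine ⟨key 18 (by decide) (by decide +kernel), ?_, ?_, trivial⟩
  · rw [e]
    exact key 13 (by decide) (by decide +kernel)
  · rw [e, e]
    exact key 12 (by decide) (by decide +kernel)

lemma gen_le : twistedD4 K q ≤ Subgroup.closure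
    ({g | ∃ (j : Fin 2) (t : Fd φ j), g = prodL ax φ (Ld j) t} ∪ {g | ∃ (j : Fin 2) (t : Fd φ j), g = prodL ax φ (negL chevD4 (Ld j)) t}) := by
  rw [twistedD4, genSubgroup, Subgroup.closure_le]
  rintro g ⟨w, hw, hg⟩
  rcases hw with ⟨t, ht, r, hr, rfl⟩ | ⟨t, rs, hrs, rfl⟩
  · have e : g = xG ax r t := Units.ext (by rw [hg, xG_val, word_single])
    have ht' : t ∈ Fd φ 0 := by
      show φ t = t
      rw [hφ, ht]
    simp only [List.mem_cons, List.not_mem_nil, or_false] at hr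
    rcases hr with rfl | rfl
    · refine Subgroup.subset_closure (Or.inl ⟨0, ⟨t, ht'⟩, ?_⟩)
      rw [e]
      exact (prod1 φ hφ hφ3 ax d4p2 t).symm
    · refine Subgroup.subset_closure (Or.inr ⟨0, ⟨t, ht'⟩, ?_⟩)
      have e2 : negL chevD4 (Ld 0) = [d4m2] := by decide +kernel
      rw [e, e2]
      exact (prod1 φ hφ hφ3 ax d4m2 t).symm
  · have e : g = xG ax rs.1 t * xG ax rs.2.1 (t ^ q) * xG ax rs.2.2 (t ^ (q ^ 2)) :=
      Units.ext (by rw [hg, word_triple]; simp)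
    have ht' : t ∈ Fd φ 1 := Subfield.mem_top t
    simp only [List.mem_cons, List.not_mem_nil, or_false] at hrs
    rcases hrs with rfl | rfl
    · refine Subgroup.subset_closure (Or.inl ⟨1, ⟨t, ht'⟩, ?_⟩)
      rw [e]
      exact (prod3 φ hφ hφ3 ax d4p1 d4p3 d4p4 t).symm
    · refine Subgroup.subset_closure (Or.inr ⟨1, ⟨t, ht'⟩, ?_⟩)
      have e2 : negL chevD4 (Ld 1) = [d4m1, d4m3, d4m4] := by decide +kernel
      rw [e, e2]
      exact (prod3 φ hφ hφ3 ax d4m1 d4m3 d4m4 t).symm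

omit hφ hφ3 in
/-- The characters of `H`. -/
lemma exists_chi (c : ∀ j, (Fd φ j)ˣ) : ∃ χ : ℕ → Kˣ, chevD4.IsRootCharacter χ ∧
    ∀ j, ChiOK φ χ (Ld j) ((c j : Fd φ j) : K) := by
  set c0 : Kˣ := Units.map ((Fd φ 0).subtype : Fd φ 0 →* K) (c 0) with hc0
  set c1 : Kˣ := Units.map ((Fd φ 1).subtype : Fd φ 1 →* K) (c 1) with hc1
  let φu : Kˣ →* Kˣ := Units.map (φ : K →* K)
  let y : ℕ → Kˣ := fun i => [c1, c0, φu c1, φu (φu c1)].getD i 1
  refine ⟨psiN chevD4 y, isRootCharacter_psiN hmemD4 y, ?_⟩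
  have hs : ∀ i, i < chevD4.rank → psiN chevD4 y (chevD4.simple i) = y i := fun i hi => psiN_simple hmemD4 y hi
  have s0 := hs 0 (by decide)
  have s1 := hs 1 (by decide)
  have s2 := hs 2 (by decide)
  have s3 := hs 3 (by decide)
  have e0 : chevD4.simple 0 = 18 := by decide +kernel
  have e1 : chevD4.simple 1 = 14 := by decide +kernel
  have e2 : chevD4.simple 2 = 13 := by decide +kernel
  have e3 : chevD4.simple 3 = 12 := by decide +kernel
  rw [e0] at s0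
  rw [e1] at s1
  rw [e2] at s2
  rw [e3] at s3
  intro j
  match j with
  | 0 =>
    refine ⟨?_, trivial⟩
    rw [s1]
    rfl
  | 1 =>
    refine ⟨?_, ?_, ?_, trivial⟩
    · rw [s0]
      rfl
    · rw [s2]
      rfl
    · rw [s3]
      rfl

lemma X_surj' (j : Fin 2) (g : GL chevD4.Idx K) (hg : g ∈ rootClosure ax (Psi chevD4 (· ∈ Cd.cls j)))
    (hG : g ∈ twistedD4 K q) : ∃ t : Fd φ j, g = prodL ax φ (Ld j) t := by
  match j with
  | 0 =>
    obtain ⟨t, ht⟩ := surj0 φ hφ hφ3 ax g hg hG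
    exact ⟨t, by rw [ht]; exact (prod1 φ hφ hφ3 ax 14 t).symm⟩
  | 1 =>
    obtain ⟨t, ht⟩ := surj1 φ hφ hφ3 ax g hg hG
    exact ⟨⟨t, Subfield.mem_top t⟩, ht⟩

lemma X_inj' (j : Fin 2) : Function.Injective (fun t : Fd φ j => prodL ax φ (Ld j) t) := by
  intro a b e
  match j with
  | 0 =>
    apply Subtype.ext
    have e' : prodL ax φ [14] (a : K) = prodL ax φ [14] (b : K) := e
    rw [prod1 φ hφ hφ3, prod1 φ hφ hφ3] at e'
    exact xG_inj hD hD2 ax (by decide) e'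
  | 1 =>
    apply Subtype.ext
    exact inj1 φ ax e

omit hφ hφ3 in
lemma n_eq' (j : Fin 2) : nw chevD4 ax (Cd.wl j) =
    WW (fun t : Fd φ j => prodL ax φ (Ld j) (t : K)) (fun t : Fd φ j => prodL ax φ (negL chevD4 (Ld j)) (t : K)) 1 := by
  have e := WW_prodL ax φ hD hD2 (good j) (Fd φ j).subtype 1
  rw [show WW (fun t : Fd φ j => prodL ax φ (Ld j) (t : K)) (fun t : Fd φ j => prodL ax φ (negL chevD4 (Ld j)) (t : K)) 1 =
    prodN ax φ (Ld j) ((Fd φ j).subtype 1) from e, map_one]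
  rw [nw_eq_prodN ax φ, wl_simple]

omit hφ hφ3 in
lemma H_mem' (j : Fin 2) (t : Fd φ j) (ht : t ≠ 0) :
    HH (fun t : Fd φ j => prodL ax φ (Ld j) (t : K)) (fun t : Fd φ j => prodL ax φ (negL chevD4 (Ld j)) (t : K)) t ∈
      chevD4.diagonalSubgroup K := by
  have e := HH_prodL ax φ hD hD2 (good j) (Fd φ j).subtype t
  rw [show HH (fun t : Fd φ j => prodL ax φ (Ld j) (t : K)) (fun t : Fd φ j => prodL ax φ (negL chevD4 (Ld j)) (t : K)) t =
    prodH ax φ (Ld j) (t : K) from e]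
  exact prodH_mem ax φ (good j).1 (by simpa using ht)

omit hφ hφ3 in
lemma disj' (a b : Fin 2) (i : ℕ) (hi : i < chevD4.rank) (h1 : i ∈ Cd.cls a) (h3 : i ∈ Cd.cls b) : a = b := by
  have : ∀ (a b : Fin 2), ∀ i ∈ Cd.cls a, i ∈ Cd.cls b → a = b := by decide +kernel
  exact this a b i h1 h3

omit hφ hφ3 in
lemma w0psi' (j : Fin 2) (r : Fin chevD4.nroots) (hr : Psi chevD4 (· ∈ Cd.cls j) r) :
    NPsi chevD4 (· ∈ Cd.cls j) (wPw hD (Cd.flat Cd.L₀) r) := by
  have e := wPw_val hD flat_lt r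
  refine ⟨(wPw hD (Cd.flat Cd.L₀) r).isLt, ?_⟩
  apply psiB_iff.mp
  show psiB chevD4 (Cd.cls j) (chevD4.neg ((wPw hD (Cd.flat Cd.L₀) r : Fin _) : ℕ)) = true
  rw [e]
  exact w0_psi j r (psiB_iff.mpr hr)

omit hφ hφ3 in
lemma w0invol' (r : Fin chevD4.nroots) : wPw hD (Cd.flat Cd.L₀) (wPw hD (Cd.flat Cd.L₀) r) = r := by
  apply Fin.ext
  show ((wPw hD (Cd.flat Cd.L₀) (wPw hD (Cd.flat Cd.L₀) r) : Fin _) : ℕ) = r
  rw [wPw_val hD flat_lt, wPw_val hD flat_lt]
  exact w0_invol r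

omit hφ hφ3 in
lemma edge_le' (i k : Fin 2) (h : i = 0 ∧ k = 1) : Fd φ i ≤ Fd φ k := by
  obtain ⟨rfl, rfl⟩ := h
  intro t _
  exact Subfield.mem_top _

lemma edge_conj' (i k : Fin 2) (h : i = 0 ∧ k = 1) (t : Fd φ i) (s u : Fd φ k) (ht : t ≠ 0)
    (hu : (u : K) = (t : K)⁻¹ * s) :
    HH (fun t : Fd φ i => prodL ax φ (Ld i) (t : K)) (fun t : Fd φ i => prodL ax φ (negL chevD4 (Ld i)) (t : K)) t *
      prodL ax φ (Ld k) s * (HH (fun t : Fd φ i => prodL ax φ (Ld i) (t : K)) (fun t : Fd φ i => prodL ax φ (negL chevD4 (Ld i)) (t : K)) t)⁻¹ =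
      prodL ax φ (Ld k) u := by
  obtain ⟨rfl, rfl⟩ := h
  have e := HH_prodL ax φ hD hD2 (good 0) (Fd φ 0).subtype t
  rw [show HH (fun t : Fd φ 0 => prodL ax φ (Ld 0) (t : K)) (fun t : Fd φ 0 => prodL ax φ (negL chevD4 (Ld 0)) (t : K)) t =
    prodH ax φ (Ld 0) (t : K) from e]
  have ht0 : (t : K) ≠ 0 := by simpa using ht
  have hs := scale01 φ hφ hφ3 ax (Units.mk0 (t : K) ht0) t.2
  have e2 := conj_prodL ax φ hs (s : K)
  simp only [Units.val_mk0] at e2
  show (hG ax 14 (t : K) * prodH ax φ [] (φ (t : K))) * prodL ax φ [18, 13, 12] (s : K) * _⁻¹ = prodL ax φ [18, 13, 12] (u : K)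
  rw [hu]
  exact e2

omit hφ hφ3 in
lemma reach' (P : Fin 2 → Prop) (hb : P 1) (hs : ∀ i k : Fin 2, (i = 0 ∧ k = 1) → P k → P i) (j : Fin 2) : P j := by
  match j with
  | 0 => exact hs 0 1 ⟨rfl, rfl⟩ hb
  | 1 => exact hb

omit hφ hφ3 in
lemma rigid' (hne : Nat.card (fixF φ) ≠ Nat.card (⊤ : Subfield K)) (π : Fin 2 → Fin 2)
    (hcard : ∀ j, Nat.card (Fd φ j) = Nat.card (Fd φ (π j))) (j : Fin 2) : π j = j := by
  by_contra hn
  have h1 := hcard j
  have h3 : (j = 0 ∧ π j = 1) ∨ (j = 1 ∧ π j = 0) := by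
    clear h1
    revert hn
    generalize π j = k
    clear hcard
    revert j k
    decide
  rcases h3 with ⟨rfl, e⟩ | ⟨rfl, e⟩
  · rw [e] at h1
    exact hne h1
  · rw [e] at h1
    exact hne h1.symm

/-- The data for ³D₄. -/
noncomputable def CDd (hne : Nat.card (fixF φ) ≠ Nat.card (⊤ : Subfield K)) : CD (TD4 φ hφ hφ3 ax) where
  F := Fd φ
  X j t := prodL ax φ (Ld j) t
  Y j t := prodL ax φ (negL chevD4 (Ld j)) t
  rel j := rel_prodL ax φ hD hD2 (good j) (Fd φ j).subtype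
  X_psi j t := prodL_mem ax φ (fun r hr => psi_of_mem j hr) t
  Y_npsi j t := prodL_mem ax φ (fun r hr => npsi_of_mem j hr) t
  X_G j t := X_mem φ hφ hφ3 ax j t
  Y_G j t := Y_mem φ hφ hφ3 ax j t
  X_surj := X_surj' φ hφ hφ3 ax
  X_inj := X_inj' φ hφ hφ3 ax
  H_mem := H_mem' φ ax
  n_eq := n_eq' φ ax
  gen := gen_le φ hφ hφ3 ax
  disj := disj'
  w0psi := w0psi'
  w0invol := w0invol'
  base := (1 : Fin 2)
  F_base t := Subfield.mem_top t
  Edge := fun (i k : Fin 2) => i = 0 ∧ k = 1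
  edge_le := edge_le' φ
  edge_conj := edge_conj' φ hφ hφ3 ax
  reach := reach'
  rigid π hcard hcomm := rigid' φ hne π hcard
  F_map τ j t ht := tau_F φ hφ τ j t ht
  X_map τ j t u hu := by
    rw [hu]
    exact mapX_prodL ax φ hD τ (tau_comm φ hφ τ) (Ld j) t
  Y_map τ j t u hu := by
    rw [hu]
    exact mapX_prodL ax φ hD τ (tau_comm φ hφ τ) _ t
  diag c := by
    obtain ⟨χ, hχ, hc⟩ := exists_chi φ c
    refine ⟨χ, hχ, fun j t u hu => ?_, fun j t u hu => ?_⟩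
    · rw [hu]
      exact dU_conj_prodL ax φ hmemD4 hχ (good j).1 (hc j) t
    · rw [hu]
      exact dU_conj_prodL ax φ hmemD4 hχ (fun r hr => (npsi_of_mem j hr).1) (ChiOK_neg φ hχ (good j).1 (hc j)) t

end Fix

/-- The order of the outer automorphism group of ³D₄(q). -/
theorem card_out_D4 {K : Type*} [Field K] [Fintype K] (p f : ℕ) [Fact p.Prime] [CharP K p]
    (hK : Fintype.card K = p ^ (3 * f)) (hf : 1 ≤ f) :
    Nat.card (Cfsg.Out ↥(Cfsg.Lie.twistedD4 K (p ^ f))) = 3 * f := by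
  classical
  have hp : p.Prime := Fact.out
  have hq : IsPrimePow (p ^ f) := hp.isPrimePow.pow (by omega)
  generalize hqq : p ^ f = q at hq ⊢
  have hK' : Fintype.card K = q ^ 3 := by rw [hK, ← hqq, ← pow_mul, mul_comm]
  have hq2 : 2 ≤ q := hq.two_le
  obtain ⟨φ, hφ, hφ3⟩ := Cfsg.Agent.Lib.Twisted.D4H.exists_φ hq hK'
  have ax : Ax chevD4 K := Cfsg.Agent.Lib.Lie.AxOf.ax_of_mem hmemD4
  have hfix : Nat.card (fixF φ) = q := by
    rw [← card_fix hq2 (k := 3) (by norm_num) hK']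
    apply Nat.card_congr
    refine Equiv.subtypeEquivRight fun t => ?_
    rw [mem_fixF, hφ]
  have htop : Nat.card (⊤ : Subfield K) = q ^ 3 := by
    rw [← hK', ← Nat.card_eq_fintype_card]
    exact Nat.card_congr (Equiv.subtypeUnivEquiv fun t => Subfield.mem_top t)
  have hlt : q < q ^ 3 := by
    calc q = q ^ 1 := (pow_one q).symm
      _ < q ^ 3 := Nat.pow_lt_pow_right (by omega) (by norm_num)
  have hne : Nat.card (fixF φ) ≠ Nat.card (⊤ : Subfield K) := by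
    rw [hfix, htop]
    exact hlt.ne
  have key := (CDd φ hφ hφ3 ax hne).card_out hD2 hmemD4
    (center_eq_bot (Cfsg.Agent.Lib.Twisted.D4S.simple_D4 hq hK'))
  have hpi : Nat.card (∀ j : Fin 2, (Fd φ j)ˣ) = (q - 1) * (q ^ 3 - 1) := by
    rw [Nat.card_pi, Fin.prod_univ_two]
    have h0 : Nat.card (Fd φ 0)ˣ = q - 1 := by
      rw [Nat.card_units]
      show Nat.card (fixF φ) - 1 = _
      rw [hfix]
    have h1 : Nat.card (Fd φ 1)ˣ = q ^ 3 - 1 := by
      rw [Nat.card_units]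
      show Nat.card (⊤ : Subfield K) - 1 = _
      rw [htop]
    rw [h0, h1]
  have hgal : Nat.card (K ≃+* K) = 3 * f := by
    have := Cfsg.Agent.Lib.KS71.PSLAutGroup.card_ringEquiv (F := K) (p := p) (f := 3 * f) hK (by omega)
    exact this
  have key2 : (q - 1) ^ 2 * (q ^ 2 + q + 1) * Nat.card (Cfsg.Out ↥(twistedD4 K q)) = 3 * f * ((q - 1) * (q ^ 3 - 1)) := by
    rw [← Cfsg.Agent.Lib.Twisted.D4H.card_H1 hq hK', ← Inst.card_H1, ← hgal, ← hpi]
    exact key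
  have hfac : q ^ 3 - 1 = (q - 1) * (q ^ 2 + q + 1) := by
    obtain ⟨m, rfl⟩ : ∃ m, q = m + 1 := ⟨q - 1, by omega⟩
    simp only [Nat.add_sub_cancel]
    rw [show (m + 1) ^ 3 = m * ((m + 1) ^ 2 + (m + 1) + 1) + 1 by ring]
    simp
  have hpos : 0 < (q - 1) ^ 2 * (q ^ 2 + q + 1) := by
    apply Nat.mul_pos
    · exact pow_pos (by omega) _
    · omega
  apply Nat.eq_of_mul_eq_mul_left hpos
  rw [key2, hfac]
  ring

end Cfsg.Agent.Lib.TwAut.D4Aut
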