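import Cfsg.Agent.Lib.TwAut.Inst
import Cfsg.Agent.Lib.Twisted.E6S
import Cfsg.Agent.Lib.Twisted.E6H

/-!
# The outer automorphism group of ²E₆(q)
-/

set_option autoImplicit false
set_option linter.unusedSectionVars false
set_option linter.unusedVariables false
set_option linter.ambiguousOpen false
set_option linter.dupNamespace false

namespace Cfsg.Agent.Lib.TwAut.E6Aut

open scoped MatrixGroups Matrix
open Cfsg Lie ChevalleyDatum
open Cfsg.Agent.Lib.Chev
open Tables Tables2 Tables3 Raise Basic AxBasic Torus Products Products2 Mono1 Mono2 Mono3 Bn Parab Unipotent SL2 SL2Chev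
open Cfsg.Agent.Lib.Twisted.Fact Cfsg.Agent.Lib.Twisted.Tw Cfsg.Agent.Lib.Twisted.Struct
open Cfsg.Agent.Lib.Twisted.Check Cfsg.Agent.Lib.Twisted.Ortho Cfsg.Agent.Lib.Twisted.Perf
open Cfsg.Agent.Lib.Twisted.E6
open Cfsg.Agent.Lib.TwAut.Rank1 Cfsg.Agent.Lib.TwAut.Orbit Cfsg.Agent.Lib.TwAut.Norm Cfsg.Agent.Lib.TwAut.Class
open Cfsg.Agent.Lib.TwAut.Inst
open Cfsg.Agent.Lib.KS71.ChevFix (mapX)
open Cfsg.Agent.Lib.Steinberg.AutExist (dU psiN isRootCharacter_psiN psiN_simple)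

variable {K : Type*} [Field K] {q : ℕ}

/-- The roots of the classes. -/
def Ld : Fin 4 → List ℕ
  | 0 => [46]
  | 1 => [39]
  | 2 => [56, 36]
  | 3 => [42, 37]

/-- The fields of the classes. -/
def Fd (φ : K ≃+* K) : Fin 4 → Subfield K
  | 0 => fixF φ
  | 1 => fixF φ
  | 2 => ⊤
  | 3 => ⊤

theorem good : ∀ j, Good chevE6 (Ld j) := by decide +kernel

theorem psi_all : ∀ j, ∀ r ∈ Ld j, psiB chevE6 (Ce.cls j) r = true := by decide +kernel

set_option maxRecDepth 100000 in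
theorem w0_psi : ∀ (j : Fin 4) (r : Fin chevE6.nroots), psiB chevE6 (Ce.cls j) r = true →
    psiB chevE6 (Ce.cls j) (chevE6.neg (wWord chevE6 (Ce.flat Ce.L₀) r)) = true := by decide +kernel

set_option maxRecDepth 100000 in
theorem w0_invol : ∀ r : Fin chevE6.nroots, wWord chevE6 (Ce.flat Ce.L₀) (wWord chevE6 (Ce.flat Ce.L₀) r) = r := by
  decide +kernel

set_option maxRecDepth 100000 in
theorem flat_lt : ∀ i ∈ Ce.flat Ce.L₀, i < chevE6.rank := by decide +kernel

theorem wl_simple : ∀ j, (Ce.wl j).map chevE6.simple = Ld j := by decide +kernel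

section Fix

variable (φ : K ≃+* K) (hφ : ∀ t, φ t = t ^ q) (hφ2 : ∀ t, φ (φ t) = t) (ax : Ax chevE6 K)

include hφ

omit hφ in
lemma prod1 (a : ℕ) (t : K) : prodL ax φ [a] t = xG ax a t := by simp

lemma prod2 (a b : ℕ) (t : K) : prodL ax φ [a, b] t = xG ax a t * xG ax b (t ^ q) := by
  rw [← hφ]
  simp

lemma X_mem (j : Fin 4) (t : Fd φ j) : prodL ax φ (Ld j) t ∈ twistedE6 K q := by
  match j, t with
  | 0, t =>
    show prodL ax φ [46] t ∈ _
    rw [prod1 φ ax]
    exact mem_single ax (by decide) (by rw [← hφ]; exact t.2)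
  | 1, t =>
    show prodL ax φ [39] t ∈ _
    rw [prod1 φ ax]
    exact mem_single ax (by decide) (by rw [← hφ]; exact t.2)
  | 2, t =>
    show prodL ax φ [56, 36] t ∈ _
    rw [prod2 φ hφ]
    exact mem_pair (rs := (56, 36)) ax (by decide) _
  | 3, t =>
    show prodL ax φ [42, 37] t ∈ _
    rw [prod2 φ hφ]
    exact mem_pair (rs := (42, 37)) ax (by decide) _

lemma Y_mem (j : Fin 4) (t : Fd φ j) : prodL ax φ (negL chevE6 (Ld j)) t ∈ twistedE6 K q := by
  match j, t with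
  | 0, t =>
    have e : negL chevE6 (Ld 0) = [25] := by decide +kernel
    rw [e, prod1 φ ax]
    exact mem_single ax (by decide) (by rw [← hφ]; exact t.2)
  | 1, t =>
    have e : negL chevE6 (Ld 1) = [32] := by decide +kernel
    rw [e, prod1 φ ax]
    exact mem_single ax (by decide) (by rw [← hφ]; exact t.2)
  | 2, t =>
    have e : negL chevE6 (Ld 2) = [15, 35] := by decide +kernel
    rw [e, prod2 φ hφ]
    exact mem_pair (rs := (15, 35)) ax (by decide) _
  | 3, t =>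
    have e : negL chevE6 (Ld 3) = [29, 34] := by decide +kernel
    rw [e, prod2 φ hφ]
    exact mem_pair (rs := (29, 34)) ax (by decide) _

lemma tau_comm (τ : K ≃+* K) (t : K) : τ (φ t) = φ (τ t) := by
  rw [hφ, hφ, map_pow]

omit hφ in
lemma psi_of_mem (j : Fin 4) {r : ℕ} (hr : r ∈ Ld j) : Psi chevE6 (· ∈ Ce.cls j) r :=
  psiB_iff.mp (psi_all j r hr)

omit hφ in
lemma npsi_of_mem (j : Fin 4) {r : ℕ} (hr : r ∈ negL chevE6 (Ld j)) : NPsi chevE6 (· ∈ Ce.cls j) r := by
  obtain ⟨s, hs, rfl⟩ := List.mem_map.mp hr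
  have hp := psi_of_mem j hs
  refine ⟨hE.neg_lt _ hp.1.1, ?_⟩
  rwa [hE.neg_neg _ hp.1.1]

include hφ2

lemma surj_single {a : ℕ} (ha : a < chevE6.nroots) (hρ : Se.ρ a = a) (hγ : Se.γ a = 1) {l : List ℕ}
    (hc : psiEq chevE6 l [a] = true) (g : GL chevE6.Idx K) (hg : g ∈ rootClosure ax (Psi chevE6 (· ∈ l)))
    (hG : g ∈ twistedE6 K q) : ∃ t : fixF φ, g = xG ax a t := by
  obtain ⟨x, rfl⟩ := exists_single hE ax (closure_of_check ax hc (P := fun r => r = a) (by simp) hg)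
  have hs := (G1_le φ hφ hφ2 ax hG).2
  rw [s_xE φ ax ha hρ hγ] at hs
  exact ⟨⟨x, xG_inj hE hE2 ax ha hs⟩, rfl⟩

lemma surj_pair {a b : ℕ} (H : CommPair chevE6 a b) (hab : a ≠ b) (hL : GoodList chevE6 [a, b]) (hρ : Se.ρ a = b)
    (hρ' : Se.ρ b = a) (hγ : Se.γ a = 1) (hγ' : Se.γ b = 1) {l : List ℕ} (hc : psiEq chevE6 l [a, b] = true)
    (g : GL chevE6.Idx K) (hg : g ∈ rootClosure ax (Psi chevE6 (· ∈ l))) (hG : g ∈ twistedE6 K q) :
    ∃ t : K, g = xG ax b t * (xG ax a (φ t) * 1) := by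
  obtain ⟨x, y, rfl⟩ := exists_pair ax H (closure_of_check ax hc (P := fun r => r = a ∨ r = b) (by simp) hg)
  have hs := (G1_le φ hφ hφ2 ax hG).2
  rw [(twE φ ax).s_mul _ (xG_mem_group ax H.1 x) _ (xG_mem_group ax H.2.1 y), s_xE φ ax H.1 hρ hγ,
    s_xE φ ax H.2.1 hρ' hγ', H.comm ax] at hs
  obtain ⟨h1, h3⟩ := pair_unique hE hE2 ax hab hL hs
  refine ⟨y, ?_⟩
  rw [h1, mul_one]
  exact (H.comm ax _ _).symm

omit hφ hφ2 in
lemma inj_pair {a b : ℕ} (H : CommPair chevE6 a b) (hab : a ≠ b) (hL : GoodList chevE6 [a, b]) {t t' : K}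
    (e : xG ax b t * (xG ax a (φ t) * 1) = xG ax b t' * (xG ax a (φ t') * 1)) : t = t' := by
  rw [mul_one, mul_one, H.comm ax, H.comm ax] at e
  exact (pair_unique hE hE2 ax hab hL e).2

omit hφ2 in
lemma tau_F (τ : K ≃+* K) (j : Fin 4) (t : K) (ht : t ∈ Fd φ j) : τ t ∈ Fd φ j := by
  match j, ht with
  | 0, ht =>
    show φ (τ t) = τ t
    rw [← tau_comm φ hφ]
    exact congrArg τ ht
  | 1, ht =>
    show φ (τ t) = τ t
    rw [← tau_comm φ hφ]
    exact congrArg τ ht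
  | 2, ht => exact Subfield.mem_top _
  | 3, ht => exact Subfield.mem_top _

omit hφ hφ2 in
/-- The scalars of `h_{p₂}(t)`. -/
lemma scale01 (t : Kˣ) : ScaleOK ax φ (hG ax 46 (t : K) * 1) [39] ((t : K)⁻¹) := by
  refine ⟨fun v => ?_, trivial⟩
  rw [mul_one, hG_conj hE ax (by decide) (by decide), show pair chevE6 46 39 = -1 by decide +kernel]
  simp

omit hφ hφ2 in
/-- The scalars of `h_{p₄}(t)`. -/
lemma scale13 (t : Kˣ) (ht : φ t = t) : ScaleOK ax φ (hG ax 39 (t : K) * 1) [42, 37] ((t : K)⁻¹) := by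
  have key : ∀ s : ℕ, s < chevE6.nroots → pair chevE6 39 s = -1 → ∀ v,
      (hG ax 39 (t : K) * 1) * xG ax s v * (hG ax 39 (t : K) * 1)⁻¹ = xG ax s ((t : K)⁻¹ * v) := by
    intro s hs hp v
    rw [mul_one, hG_conj hE ax (by decide) hs, hp]
    simp
  have e : φ (t : K)⁻¹ = (t : K)⁻¹ := by rw [map_inv₀, ht]
  refine ⟨key 42 (by decide) (by decide +kernel), ?_, trivial⟩
  rw [e]
  exact key 37 (by decide) (by decide +kernel)

omit hφ hφ2 in
/-- The scalars of `h_{p₃}(t) h_{p₅}(φ t)`. -/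
lemma scale32 (t : Kˣ) : ScaleOK ax φ (hG ax 42 (t : K) * (hG ax 37 (φ (t : K)) * 1)) [56, 36] ((t : K)⁻¹) := by
  have ht' : φ (t : K) = ((Units.map (φ : K →* K) t : Kˣ) : K) := rfl
  refine ⟨fun v => ?_, fun v => ?_, trivial⟩
  · rw [mul_one, ht', hh_conj hE ax (by decide) (by decide) (by decide), show pair chevE6 42 56 = -1 by decide +kernel,
      show pair chevE6 37 56 = 0 by decide +kernel]
    simp
  · rw [mul_one, ht', hh_conj hE ax (by decide) (by decide) (by decide), show pair chevE6 42 36 = 0 by decide +kernel,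
      show pair chevE6 37 36 = -1 by decide +kernel]
    simp

lemma gen_le : twistedE6 K q ≤ Subgroup.closure
    ({g | ∃ (j : Fin 4) (t : Fd φ j), g = prodL ax φ (Ld j) t} ∪ {g | ∃ (j : Fin 4) (t : Fd φ j), g = prodL ax φ (negL chevE6 (Ld j)) t}) := by
  rw [twistedE6, genSubgroup, Subgroup.closure_le]
  rintro g ⟨w, hw, hg⟩
  rcases hw with ⟨t, ht, r, hr, rfl⟩ | ⟨t, rs, hrs, rfl⟩
  · have e : g = xG ax r t := Units.ext (by rw [hg, xG_val, word_single])
    have ht' : φ t = t := by rw [hφ, ht]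
    simp only [List.mem_cons, List.not_mem_nil, or_false] at hr
    rcases hr with rfl | rfl | rfl | rfl
    · refine Subgroup.subset_closure (Or.inl ⟨0, ⟨t, ht'⟩, ?_⟩)
      rw [e]
      exact (prod1 φ ax e6p2 t).symm
    · refine Subgroup.subset_closure (Or.inr ⟨0, ⟨t, ht'⟩, ?_⟩)
      have e2 : negL chevE6 (Ld 0) = [e6m2] := by decide +kernel
      rw [e, e2]
      exact (prod1 φ ax e6m2 t).symm
    · refine Subgroup.subset_closure (Or.inl ⟨1, ⟨t, ht'⟩, ?_⟩)
      rw [e]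
      exact (prod1 φ ax e6p4 t).symm
    · refine Subgroup.subset_closure (Or.inr ⟨1, ⟨t, ht'⟩, ?_⟩)
      have e2 : negL chevE6 (Ld 1) = [e6m4] := by decide +kernel
      rw [e, e2]
      exact (prod1 φ ax e6m4 t).symm
  · have e : g = xG ax rs.1 t * xG ax rs.2 (t ^ q) :=
      Units.ext (by rw [hg, word_pair]; simp)
    simp only [List.mem_cons, List.not_mem_nil, or_false] at hrs
    rcases hrs with rfl | rfl | rfl | rfl
    · refine Subgroup.subset_closure (Or.inl ⟨2, ⟨t, Subfield.mem_top t⟩, ?_⟩)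
      rw [e]
      exact (prod2 φ hφ ax e6p1 e6p6 t).symm
    · refine Subgroup.subset_closure (Or.inr ⟨2, ⟨t, Subfield.mem_top t⟩, ?_⟩)
      have e2 : negL chevE6 (Ld 2) = [e6m1, e6m6] := by decide +kernel
      rw [e, e2]
      exact (prod2 φ hφ ax e6m1 e6m6 t).symm
    · refine Subgroup.subset_closure (Or.inl ⟨3, ⟨t, Subfield.mem_top t⟩, ?_⟩)
      rw [e]
      exact (prod2 φ hφ ax e6p3 e6p5 t).symm
    · refine Subgroup.subset_closure (Or.inr ⟨3, ⟨t, Subfield.mem_top t⟩, ?_⟩)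
      have e2 : negL chevE6 (Ld 3) = [e6m3, e6m5] := by decide +kernel
      rw [e, e2]
      exact (prod2 φ hφ ax e6m3 e6m5 t).symm

omit hφ hφ2 in
/-- The characters of `H`. -/
lemma exists_chi (c : ∀ j, (Fd φ j)ˣ) : ∃ χ : ℕ → Kˣ, chevE6.IsRootCharacter χ ∧
    ∀ j, ChiOK φ χ (Ld j) ((c j : Fd φ j) : K) := by
  set c0 : Kˣ := Units.map ((Fd φ 0).subtype : Fd φ 0 →* K) (c 0) with hc0
  set c1 : Kˣ := Units.map ((Fd φ 1).subtype : Fd φ 1 →* K) (c 1) with hc1
  set c2 : Kˣ := Units.map ((Fd φ 2).subtype : Fd φ 2 →* K) (c 2) with hc2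
  set c3 : Kˣ := Units.map ((Fd φ 3).subtype : Fd φ 3 →* K) (c 3) with hc3
  let φu : Kˣ →* Kˣ := Units.map (φ : K →* K)
  let y : ℕ → Kˣ := fun i => [c2, c0, c3, c1, φu c3, φu c2].getD i 1
  refine ⟨psiN chevE6 y, isRootCharacter_psiN hmemE6 y, ?_⟩
  have hs : ∀ i, i < chevE6.rank → psiN chevE6 y (chevE6.simple i) = y i := fun i hi => psiN_simple hmemE6 y hi
  have s0 := hs 0 (by decide)
  have s1 := hs 1 (by decide)
  have s2 := hs 2 (by decide)
  have s3 := hs 3 (by decide)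
  have s4 := hs 4 (by decide)
  have s5 := hs 5 (by decide)
  rw [show chevE6.simple 0 = 56 by decide +kernel] at s0
  rw [show chevE6.simple 1 = 46 by decide +kernel] at s1
  rw [show chevE6.simple 2 = 42 by decide +kernel] at s2
  rw [show chevE6.simple 3 = 39 by decide +kernel] at s3
  rw [show chevE6.simple 4 = 37 by decide +kernel] at s4
  rw [show chevE6.simple 5 = 36 by decide +kernel] at s5
  intro j
  match j with
  | 0 =>
    refine ⟨?_, trivial⟩
    rw [s1]
    rfl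
  | 1 =>
    refine ⟨?_, trivial⟩
    rw [s3]
    rfl
  | 2 =>
    refine ⟨?_, ?_, trivial⟩
    · rw [s0]
      rfl
    · rw [s5]
      rfl
  | 3 =>
    refine ⟨?_, ?_, trivial⟩
    · rw [s2]
      rfl
    · rw [s4]
      rfl

lemma X_surj' (j : Fin 4) (g : GL chevE6.Idx K) (hg : g ∈ rootClosure ax (Psi chevE6 (· ∈ Ce.cls j)))
    (hG : g ∈ twistedE6 K q) : ∃ t : Fd φ j, g = prodL ax φ (Ld j) t := by
  match j with
  | 0 =>
    obtain ⟨t, ht⟩ := surj_single φ hφ hφ2 ax (a := 46) (by decide) (by decide +kernel) (by decide +kernel) psi0 g hg hG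
    exact ⟨t, by rw [ht]; exact (prod1 φ ax 46 t).symm⟩
  | 1 =>
    obtain ⟨t, ht⟩ := surj_single φ hφ hφ2 ax (a := 39) (by decide) (by decide +kernel) (by decide +kernel) psi1 g hg hG
    exact ⟨t, by rw [ht]; exact (prod1 φ ax 39 t).symm⟩
  | 2 =>
    obtain ⟨t, ht⟩ := surj_pair φ hφ hφ2 ax (a := 36) (b := 56) (by decide +kernel) (by decide)
      ⟨by decide, by decide +kernel, by decide +kernel⟩ (by decide +kernel) (by decide +kernel) (by decide +kernel)
      (by decide +kernel) psi2 g hg hG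
    exact ⟨⟨t, Subfield.mem_top t⟩, ht⟩
  | 3 =>
    obtain ⟨t, ht⟩ := surj_pair φ hφ hφ2 ax (a := 37) (b := 42) (by decide +kernel) (by decide)
      ⟨by decide, by decide +kernel, by decide +kernel⟩ (by decide +kernel) (by decide +kernel) (by decide +kernel)
      (by decide +kernel) psi3 g hg hG
    exact ⟨⟨t, Subfield.mem_top t⟩, ht⟩

omit hφ hφ2 in
lemma X_inj' (j : Fin 4) : Function.Injective (fun t : Fd φ j => prodL ax φ (Ld j) t) := by
  intro a b e
  match j with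
  | 0 =>
    apply Subtype.ext
    have e' : prodL ax φ [46] (a : K) = prodL ax φ [46] (b : K) := e
    rw [prod1 φ ax, prod1 φ ax] at e'
    exact xG_inj hE hE2 ax (by decide) e'
  | 1 =>
    apply Subtype.ext
    have e' : prodL ax φ [39] (a : K) = prodL ax φ [39] (b : K) := e
    rw [prod1 φ ax, prod1 φ ax] at e'
    exact xG_inj hE hE2 ax (by decide) e'
  | 2 =>
    apply Subtype.ext
    exact inj_pair φ ax (a := 36) (b := 56) (by decide +kernel) (by decide)
      ⟨by decide, by decide +kernel, by decide +kernel⟩ e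
  | 3 =>
    apply Subtype.ext
    exact inj_pair φ ax (a := 37) (b := 42) (by decide +kernel) (by decide)
      ⟨by decide, by decide +kernel, by decide +kernel⟩ e

omit hφ hφ2 in
lemma n_eq' (j : Fin 4) : nw chevE6 ax (Ce.wl j) =
    WW (fun t : Fd φ j => prodL ax φ (Ld j) (t : K)) (fun t : Fd φ j => prodL ax φ (negL chevE6 (Ld j)) (t : K)) 1 := by
  have e := WW_prodL ax φ hE hE2 (good j) (Fd φ j).subtype 1
  rw [show WW (fun t : Fd φ j => prodL ax φ (Ld j) (t : K)) (fun t : Fd φ j => prodL ax φ (negL chevE6 (Ld j)) (t : K)) 1 =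
    prodN ax φ (Ld j) ((Fd φ j).subtype 1) from e, map_one]
  rw [nw_eq_prodN ax φ, wl_simple]

omit hφ hφ2 in
lemma H_mem' (j : Fin 4) (t : Fd φ j) (ht : t ≠ 0) :
    HH (fun t : Fd φ j => prodL ax φ (Ld j) (t : K)) (fun t : Fd φ j => prodL ax φ (negL chevE6 (Ld j)) (t : K)) t ∈
      chevE6.diagonalSubgroup K := by
  have e := HH_prodL ax φ hE hE2 (good j) (Fd φ j).subtype t
  rw [show HH (fun t : Fd φ j => prodL ax φ (Ld j) (t : K)) (fun t : Fd φ j => prodL ax φ (negL chevE6 (Ld j)) (t : K)) t =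
    prodH ax φ (Ld j) (t : K) from e]
  exact prodH_mem ax φ (good j).1 (by simpa using ht)

omit hφ hφ2 in
lemma disj' (a b : Fin 4) (i : ℕ) (hi : i < chevE6.rank) (h1 : i ∈ Ce.cls a) (h3 : i ∈ Ce.cls b) : a = b := by
  have : ∀ (a b : Fin 4), ∀ i ∈ Ce.cls a, i ∈ Ce.cls b → a = b := by decide +kernel
  exact this a b i h1 h3

omit hφ hφ2 in
lemma w0psi' (j : Fin 4) (r : Fin chevE6.nroots) (hr : Psi chevE6 (· ∈ Ce.cls j) r) :
    NPsi chevE6 (· ∈ Ce.cls j) (wPw hE (Ce.flat Ce.L₀) r) := by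
  have e := wPw_val hE flat_lt r
  refine ⟨(wPw hE (Ce.flat Ce.L₀) r).isLt, ?_⟩
  apply psiB_iff.mp
  show psiB chevE6 (Ce.cls j) (chevE6.neg ((wPw hE (Ce.flat Ce.L₀) r : Fin _) : ℕ)) = true
  rw [e]
  exact w0_psi j r (psiB_iff.mpr hr)

omit hφ hφ2 in
lemma w0invol' (r : Fin chevE6.nroots) : wPw hE (Ce.flat Ce.L₀) (wPw hE (Ce.flat Ce.L₀) r) = r := by
  apply Fin.ext
  show ((wPw hE (Ce.flat Ce.L₀) (wPw hE (Ce.flat Ce.L₀) r) : Fin _) : ℕ) = r
  rw [wPw_val hE flat_lt, wPw_val hE flat_lt]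
  exact w0_invol r

/-- The edges of the diagram. -/
def Ed (i k : Fin 4) : Prop := (i = 0 ∧ k = 1) ∨ (i = 1 ∧ k = 3) ∨ (i = 3 ∧ k = 2)

omit hφ hφ2 in
lemma edge_le' (i k : Fin 4) (h : Ed i k) : Fd φ i ≤ Fd φ k := by
  rcases h with ⟨rfl, rfl⟩ | ⟨rfl, rfl⟩ | ⟨rfl, rfl⟩
  · exact le_refl _
  · intro t _
    exact Subfield.mem_top _
  · exact le_refl _

lemma edge_conj' (i k : Fin 4) (h : Ed i k) (t : Fd φ i) (s u : Fd φ k) (ht : t ≠ 0)
    (hu : (u : K) = (t : K)⁻¹ * s) :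
    HH (fun t : Fd φ i => prodL ax φ (Ld i) (t : K)) (fun t : Fd φ i => prodL ax φ (negL chevE6 (Ld i)) (t : K)) t *
      prodL ax φ (Ld k) s * (HH (fun t : Fd φ i => prodL ax φ (Ld i) (t : K)) (fun t : Fd φ i => prodL ax φ (negL chevE6 (Ld i)) (t : K)) t)⁻¹ =
      prodL ax φ (Ld k) u := by
  have e := HH_prodL ax φ hE hE2 (good i) (Fd φ i).subtype t
  rw [show HH (fun t : Fd φ i => prodL ax φ (Ld i) (t : K)) (fun t : Fd φ i => prodL ax φ (negL chevE6 (Ld i)) (t : K)) t =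
    prodH ax φ (Ld i) (t : K) from e, hu]
  have ht0 : (t : K) ≠ 0 := by simpa using ht
  rcases h with ⟨rfl, rfl⟩ | ⟨rfl, rfl⟩ | ⟨rfl, rfl⟩
  · have hs := scale01 φ ax (Units.mk0 (t : K) ht0)
    have e2 := conj_prodL ax φ hs (s : K)
    simp only [Units.val_mk0] at e2
    exact e2
  · have hs := scale13 φ ax (Units.mk0 (t : K) ht0) t.2
    have e2 := conj_prodL ax φ hs (s : K)
    simp only [Units.val_mk0] at e2
    exact e2
  · have hs := scale32 φ ax (Units.mk0 (t : K) ht0)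
    have e2 := conj_prodL ax φ hs (s : K)
    simp only [Units.val_mk0] at e2
    exact e2

omit hφ hφ2 in
lemma reach' (P : Fin 4 → Prop) (hb : P 2) (hs : ∀ i k : Fin 4, Ed i k → P k → P i) (j : Fin 4) : P j := by
  have h3 : P 3 := hs 3 2 (Or.inr (Or.inr ⟨rfl, rfl⟩)) hb
  have h1 : P 1 := hs 1 3 (Or.inr (Or.inl ⟨rfl, rfl⟩)) h3
  have h0 : P 0 := hs 0 1 (Or.inl ⟨rfl, rfl⟩) h1
  match j with
  | 0 => exact h0
  | 1 => exact h1
  | 2 => exact hb
  | 3 => exact h3

section Rigid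

omit hφ hφ2

/-- Commutation of products from commuting pairs. -/
lemma comm_lists {L L' : List ℕ} (h : ∀ a ∈ L, ∀ b ∈ L', CommPair chevE6 a b) (s t : K) :
    Commute (prodL ax φ L s) (prodL ax φ L' t) :=
  comm_prodL ax φ L' (fun b hb u => (comm_prodL ax φ L (fun a ha v => (h a ha b hb).comm ax v u) s).symm) t

omit φ in
/-- The commutator formula with a single term. -/
lemma comm1 {r s c : ℕ} {ε : ℤ} (hr : r < chevE6.nroots) (hs : s < chevE6.nroots) (hrs : s ≠ r) (hneg : s ≠ chevE6.neg r)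
    (ht : chevE6.commTerms r s = [(c, ε, 1, 1)]) (t u : K) :
    xG ax s u * xG ax r t = xG ax r t * xG ax s u * xG ax c ((ε : K) * (-t) ^ 1 * u ^ 1) := by
  have := xG_comm ax hr hs hrs hneg t u
  simp only [commWord, ht, List.map_cons, List.map_nil, wordG_cons, wordG_nil, mul_one] at this
  exact this

lemma abs13 {G : Type*} [Group G] {T A B P Q : G} (h1 : A * T = T * A * P) (h2 : B * T = T * B * Q)
    (hc : Commute T (A * B)) (h3 : Commute B Q) : P * Q = 1 := by
  have e : T * (A * B) = T * A * (P * Q) * B := by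
    rw [hc.eq]
    calc A * B * T = A * (B * T) := by group
      _ = A * (T * B * Q) := by rw [h2]
      _ = (A * T) * (B * Q) := by group
      _ = (T * A * P) * (B * Q) := by rw [h1]
      _ = T * A * P * (Q * B) := by rw [h3.eq]
      _ = _ := by group
  have e2 : T * (A * B) = T * A * B := by group
  rw [e2] at e
  have e3 := mul_right_cancel e
  have e4 : T * A * 1 = T * A * (P * Q) := by simpa using e3
  exact (mul_left_cancel e4).symm

lemma abs32 {G : Type*} [Group G] {U V A B P Q : G} (h1 : U * A = A * U * P) (h2 : V * B = B * V * Q)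
    (c1 : Commute V A) (c2 : Commute U B) (c3 : Commute P B) (c4 : Commute P V)
    (hc : Commute (U * V) (A * B)) : P * Q = 1 := by
  have e : U * V * (A * B) = A * B * (U * V) * (P * Q) := by
    calc U * V * (A * B) = U * (V * A) * B := by group
      _ = U * (A * V) * B := by rw [c1.eq]
      _ = (U * A) * (V * B) := by group
      _ = (A * U * P) * (B * V * Q) := by rw [h1, h2]
      _ = A * U * (P * B) * V * Q := by group
      _ = A * U * (B * P) * V * Q := by rw [c3.eq]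
      _ = A * (U * B) * (P * V) * Q := by group
      _ = A * (B * U) * (V * P) * Q := by rw [c2.eq, c4.eq]
      _ = _ := by group
  rw [hc.eq] at e
  have e4 : A * B * (U * V) * 1 = A * B * (U * V) * (P * Q) := by simpa using e
  exact (mul_left_cancel e4).symm

omit φ in
/-- Two root elements do not multiply to the identity. -/
lemma not_mul_eq_one {a b : ℕ} (hab : a ≠ b) (hL : GoodList chevE6 [a, b]) {x y : K} (hy : y ≠ 0)
    (e : xG ax b y * xG ax a x = 1) : False := by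
  have e2 : (xG ax b y * xG ax a x)⁻¹ = 1 := by rw [e, inv_one]
  rw [mul_inv_rev, xG_inv, xG_inv] at e2
  have e3 : xG ax a (-x) * xG ax b (-y) = xG ax a 0 * xG ax b (0 : K) := by simpa using e2
  have := (pair_unique hE hE2 ax hab hL e3).2
  exact hy (by simpa using this)

omit φ in
lemma nc01 : ¬ Commute (xG ax 46 (1 : K)) (xG ax 39 (1 : K)) := by
  intro hc
  have e := comm1 ax (r := 46) (s := 39) (c := 47) (ε := -1) (by decide) (by decide) (by decide) (by decide +kernel)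
    (by decide +kernel) (1 : K) 1
  rw [← hc.eq] at e
  have e2 : xG ax 47 (((-1 : ℤ) : K) * (-1) ^ 1 * 1 ^ 1) = 1 := by
    have : xG ax 46 (1 : K) * xG ax 39 1 * 1 = xG ax 46 (1 : K) * xG ax 39 1 * xG ax 47 (((-1 : ℤ) : K) * (-1) ^ 1 * 1 ^ 1) := by
      rw [mul_one]
      exact e
    exact (mul_left_cancel this).symm
  exact xG_ne_one hE hE2 ax (by decide) (by simp) e2

omit φ in
lemma nc13 : ¬ Commute (xG ax 39 (1 : K)) (xG ax 42 (1 : K) * xG ax 37 (1 : K)) := by
  intro hc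
  have h1 := comm1 ax (r := 39) (s := 42) (c := 43) (ε := 1) (by decide) (by decide) (by decide) (by decide +kernel)
    (by decide +kernel) (1 : K) 1
  have h2 := comm1 ax (r := 39) (s := 37) (c := 40) (ε := -1) (by decide) (by decide) (by decide) (by decide +kernel)
    (by decide +kernel) (1 : K) 1
  have h3 : Commute (xG ax 37 (1 : K)) (xG ax 40 (((-1 : ℤ) : K) * (-1) ^ 1 * 1 ^ 1)) :=
    (CommPair.comm ax (r := 40) (s := 37) (by decide +kernel) _ _)
  have e := abs13 h1 h2 hc h3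
  exact not_mul_eq_one ax (a := 40) (b := 43) (by decide) ⟨by decide, by decide +kernel, by decide +kernel⟩ (by simp) e

omit φ in
lemma nc32 : ¬ Commute (xG ax 56 (1 : K) * xG ax 36 (1 : K)) (xG ax 42 (1 : K) * xG ax 37 (1 : K)) := by
  intro hc
  have h1 := comm1 ax (r := 42) (s := 56) (c := 57) (ε := 1) (by decide) (by decide) (by decide) (by decide +kernel)
    (by decide +kernel) (1 : K) 1
  have h2 := comm1 ax (r := 37) (s := 36) (c := 38) (ε := -1) (by decide) (by decide) (by decide) (by decide +kernel)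
    (by decide +kernel) (1 : K) 1
  have c1 : Commute (xG ax 36 (1 : K)) (xG ax 42 (1 : K)) := CommPair.comm ax (r := 42) (s := 36) (by decide +kernel) _ _
  have c2 : Commute (xG ax 56 (1 : K)) (xG ax 37 (1 : K)) := CommPair.comm ax (r := 37) (s := 56) (by decide +kernel) _ _
  have c3 : Commute (xG ax 57 (((1 : ℤ) : K) * (-1) ^ 1 * 1 ^ 1)) (xG ax 37 (1 : K)) :=
    CommPair.comm ax (r := 37) (s := 57) (by decide +kernel) _ _
  have c4 : Commute (xG ax 57 (((1 : ℤ) : K) * (-1) ^ 1 * 1 ^ 1)) (xG ax 36 (1 : K)) :=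
    CommPair.comm ax (r := 36) (s := 57) (by decide +kernel) _ _
  have e := abs32 h1 h2 c1 c2 c3 c4 hc
  exact not_mul_eq_one ax (a := 38) (b := 57) (by decide) ⟨by decide, by decide +kernel, by decide +kernel⟩ (by simp) e

/-- The root elements of the classes at `1`. -/
lemma X_one_0 : prodL ax φ (Ld 0) ((1 : Fd φ 0) : K) = xG ax 46 1 := by
  show prodL ax φ [46] (1 : K) = _
  simp
lemma X_one_1 : prodL ax φ (Ld 1) ((1 : Fd φ 1) : K) = xG ax 39 1 := by
  show prodL ax φ [39] (1 : K) = _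
  simp
lemma X_one_2 : prodL ax φ (Ld 2) ((1 : Fd φ 2) : K) = xG ax 56 1 * xG ax 36 1 := by
  show prodL ax φ [56, 36] (1 : K) = _
  simp
lemma X_one_3 : prodL ax φ (Ld 3) ((1 : Fd φ 3) : K) = xG ax 42 1 * xG ax 37 1 := by
  show prodL ax φ [42, 37] (1 : K) = _
  simp

/-- The table of the commuting classes. -/
def tbl : Fin 4 → Fin 4 → Bool :=
  ![![true, false, true, true], ![false, true, true, false], ![true, true, true, false], ![true, false, false, true]]

/-- The classes with the large field. -/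
def big : Fin 4 → Bool := ![false, false, true, true]

lemma comm_self (j : Fin 4) (s t : Fd φ j) : Commute (prodL ax φ (Ld j) s) (prodL ax φ (Ld j) t) := by
  have R := rel_prodL ax φ hE hE2 (good j) (Fd φ j).subtype
  show _ = _
  have e1 := R.X_add s t
  have e2 := R.X_add t s
  rw [show (Fd φ j).subtype s = (s : K) from rfl, show (Fd φ j).subtype t = (t : K) from rfl] at e1 e2
  rw [e1, e2, add_comm]

lemma comm_iff (j k : Fin 4) :
    (∀ (s : Fd φ j) (t : Fd φ k), Commute (prodL ax φ (Ld j) s) (prodL ax φ (Ld k) t)) ↔ tbl j k = true := by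
  have sym : ∀ j k : Fin 4, (∀ (s : Fd φ j) (t : Fd φ k), Commute (prodL ax φ (Ld j) s) (prodL ax φ (Ld k) t)) →
      (∀ (s : Fd φ k) (t : Fd φ j), Commute (prodL ax φ (Ld k) s) (prodL ax φ (Ld j) t)) :=
    fun j k h s t => (h t s).symm
  have n01 : ¬ ∀ (s : Fd φ 0) (t : Fd φ 1), Commute (prodL ax φ (Ld 0) s) (prodL ax φ (Ld 1) t) := by
    intro h
    have := h 1 1
    rw [X_one_0, X_one_1] at this
    exact nc01 ax this
  have n13 : ¬ ∀ (s : Fd φ 1) (t : Fd φ 3), Commute (prodL ax φ (Ld 1) s) (prodL ax φ (Ld 3) t) := by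
    intro h
    have := h 1 1
    rw [X_one_1, X_one_3] at this
    exact nc13 ax this
  have n23 : ¬ ∀ (s : Fd φ 2) (t : Fd φ 3), Commute (prodL ax φ (Ld 2) s) (prodL ax φ (Ld 3) t) := by
    intro h
    have := h 1 1
    rw [X_one_2, X_one_3] at this
    exact nc32 ax this
  have c02 : ∀ (s : Fd φ 0) (t : Fd φ 2), Commute (prodL ax φ (Ld 0) s) (prodL ax φ (Ld 2) t) :=
    fun s t => comm_lists φ ax (by decide +kernel) _ _
  have c03 : ∀ (s : Fd φ 0) (t : Fd φ 3), Commute (prodL ax φ (Ld 0) s) (prodL ax φ (Ld 3) t) :=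
    fun s t => comm_lists φ ax (by decide +kernel) _ _
  have c12 : ∀ (s : Fd φ 1) (t : Fd φ 2), Commute (prodL ax φ (Ld 1) s) (prodL ax φ (Ld 2) t) :=
    fun s t => comm_lists φ ax (by decide +kernel) _ _
  have hself := comm_self φ ax
  match j, k with
  | 0, 0 => exact iff_of_true (hself 0) rfl
  | 0, 1 => exact iff_of_false n01 (by decide)
  | 0, 2 => exact iff_of_true c02 rfl
  | 0, 3 => exact iff_of_true c03 rfl
  | 1, 0 => exact iff_of_false (fun h => n01 (sym _ _ h)) (by decide)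
  | 1, 1 => exact iff_of_true (hself 1) rfl
  | 1, 2 => exact iff_of_true c12 rfl
  | 1, 3 => exact iff_of_false n13 (by decide)
  | 2, 0 => exact iff_of_true (sym _ _ c02) rfl
  | 2, 1 => exact iff_of_true (sym _ _ c12) rfl
  | 2, 2 => exact iff_of_true (hself 2) rfl
  | 2, 3 => exact iff_of_false n23 (by decide)
  | 3, 0 => exact iff_of_true (sym _ _ c03) rfl
  | 3, 1 => exact iff_of_false (fun h => n13 (sym _ _ h)) (by decide)
  | 3, 2 => exact iff_of_false (fun h => n23 (sym _ _ h)) (by decide)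
  | 3, 3 => exact iff_of_true (hself 3) rfl

lemma cardFd (j : Fin 4) : Nat.card (Fd φ j) = if big j then Nat.card (⊤ : Subfield K) else Nat.card (fixF φ) := by
  match j with
  | 0 => rfl
  | 1 => rfl
  | 2 => rfl
  | 3 => rfl

set_option synthInstance.maxSize 1000 in
set_option synthInstance.maxHeartbeats 0 in
omit [Field K] in
theorem rigid_key : ∀ a b c d : Fin 4, (tbl 0 1 = tbl a b ∧ tbl 1 3 = tbl b d ∧ tbl 3 2 = tbl d c ∧ tbl 0 2 = tbl a c ∧
      tbl 0 3 = tbl a d ∧ tbl 1 2 = tbl b c ∧ big 0 = big a ∧ big 1 = big b ∧ big 2 = big c ∧ big 3 = big d) →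
      a = 0 ∧ b = 1 ∧ c = 2 ∧ d = 3 := by decide +kernel

lemma rigid' (hne : Nat.card (fixF φ) ≠ Nat.card (⊤ : Subfield K)) (π : Fin 4 → Fin 4)
    (hcard : ∀ j, Nat.card (Fd φ j) = Nat.card (Fd φ (π j)))
    (hcomm : ∀ j k, (∀ (s : Fd φ j) (t : Fd φ k), Commute (prodL ax φ (Ld j) s) (prodL ax φ (Ld k) t)) ↔
      (∀ (s : Fd φ (π j)) (t : Fd φ (π k)), Commute (prodL ax φ (Ld (π j)) s) (prodL ax φ (Ld (π k)) t))) (j : Fin 4) : π j = j := by
  have h1 : ∀ j k, tbl j k = tbl (π j) (π k) := by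
    intro j k
    rw [Bool.eq_iff_iff, ← comm_iff φ ax, ← comm_iff φ ax]
    exact hcomm j k
  have h2 : ∀ j, big j = big (π j) := by
    intro j
    have h := hcard j
    rw [cardFd, cardFd] at h
    cases h3 : big j <;> cases h4 : big (π j) <;> simp only [h3, h4, Bool.true_eq, if_true, if_false, Bool.false_eq_true] at h ⊢
    · exact absurd h hne
    · exact absurd h.symm hne
  obtain ⟨e0, e1, e2, e3⟩ := rigid_key _ _ _ _ ⟨h1 0 1, h1 1 3, h1 3 2, h1 0 2, h1 0 3, h1 1 2, h2 0, h2 1, h2 2, h2 3⟩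
  match j with
  | 0 => exact e0
  | 1 => exact e1
  | 2 => exact e2
  | 3 => exact e3

end Rigid

/-- The data for ²E₆. -/
noncomputable def CDe (hne : Nat.card (fixF φ) ≠ Nat.card (⊤ : Subfield K)) : CD (TE φ hφ hφ2 ax) where
  F := Fd φ
  X j t := prodL ax φ (Ld j) t
  Y j t := prodL ax φ (negL chevE6 (Ld j)) t
  rel j := rel_prodL ax φ hE hE2 (good j) (Fd φ j).subtype
  X_psi j t := prodL_mem ax φ (fun r hr => psi_of_mem j hr) t
  Y_npsi j t := prodL_mem ax φ (fun r hr => npsi_of_mem j hr) t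
  X_G j t := X_mem φ hφ ax j t
  Y_G j t := Y_mem φ hφ ax j t
  X_surj := X_surj' φ hφ hφ2 ax
  X_inj := X_inj' φ ax
  H_mem := H_mem' φ ax
  n_eq := n_eq' φ ax
  gen := gen_le φ hφ hφ2 ax
  disj := disj'
  w0psi := w0psi'
  w0invol := w0invol'
  base := (2 : Fin 4)
  F_base t := Subfield.mem_top t
  Edge := Ed
  edge_le := edge_le' φ
  edge_conj := edge_conj' φ hφ hφ2 ax
  reach := reach'
  rigid π hcard hcomm := rigid' φ ax hne π hcard hcomm
  F_map τ j t ht := tau_F φ hφ τ j t ht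
  X_map τ j t u hu := by
    rw [hu]
    exact mapX_prodL ax φ hE τ (tau_comm φ hφ τ) (Ld j) t
  Y_map τ j t u hu := by
    rw [hu]
    exact mapX_prodL ax φ hE τ (tau_comm φ hφ τ) _ t
  diag c := by
    obtain ⟨χ, hχ, hc⟩ := exists_chi φ c
    refine ⟨χ, hχ, fun j t u hu => ?_, fun j t u hu => ?_⟩
    · rw [hu]
      exact dU_conj_prodL ax φ hmemE6 hχ (good j).1 (hc j) t
    · rw [hu]
      exact dU_conj_prodL ax φ hmemE6 hχ (fun r hr => (npsi_of_mem j hr).1) (ChiOK_neg φ hχ (good j).1 (hc j)) t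

end Fix

/-- The order of the outer automorphism group of ²E₆(q). -/
theorem card_out_E6 {K : Type*} [Field K] [Fintype K] (p f : ℕ) [Fact p.Prime] [CharP K p]
    (hK : Fintype.card K = p ^ (2 * f)) (hf : 1 ≤ f) :
    Nat.card (Cfsg.Out ↥(Cfsg.Lie.twistedE6 K (p ^ f))) = 2 * Nat.gcd 3 (p ^ f + 1) * f := by
  classical
  have hp : p.Prime := Fact.out
  have hq : IsPrimePow (p ^ f) := hp.isPrimePow.pow (by omega)
  generalize hqq : p ^ f = q at hq ⊢
  have hK' : Fintype.card K = q ^ 2 := by rw [hK, ← hqq, ← pow_mul, mul_comm]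
  have hq2 : 2 ≤ q := hq.two_le
  obtain ⟨φ, hφ, hφ2⟩ := Cfsg.Agent.Lib.Twisted.E6.exists_φ hq hK'
  have ax : Ax chevE6 K := Cfsg.Agent.Lib.Lie.AxOf.ax_of_mem hmemE6
  have hfix : Nat.card (fixF φ) = q := by
    rw [← card_fix hq2 (k := 2) (by norm_num) hK']
    apply Nat.card_congr
    refine Equiv.subtypeEquivRight fun t => ?_
    rw [mem_fixF, hφ]
  have htop : Nat.card (⊤ : Subfield K) = q ^ 2 := by
    rw [← hK', ← Nat.card_eq_fintype_card]
    exact Nat.card_congr (Equiv.subtypeUnivEquiv fun t => Subfield.mem_top t)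
  have hlt : q < q ^ 2 := by
    calc q = q ^ 1 := (pow_one q).symm
      _ < q ^ 2 := Nat.pow_lt_pow_right (by omega) (by norm_num)
  have hne : Nat.card (fixF φ) ≠ Nat.card (⊤ : Subfield K) := by
    rw [hfix, htop]
    exact hlt.ne
  have key := (CDe φ hφ hφ2 ax hne).card_out hE2 hmemE6
    (center_eq_bot (Cfsg.Agent.Lib.Twisted.E6S.simple_E6 hq hK'))
  have hpi : Nat.card (∀ j : Fin 4, (Fd φ j)ˣ) = (q - 1) * (q - 1) * (q ^ 2 - 1) * (q ^ 2 - 1) := by
    rw [Nat.card_pi, Fin.prod_univ_four]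
    have h0 : Nat.card (Fd φ 0)ˣ = q - 1 := by
      rw [Nat.card_units]
      show Nat.card (fixF φ) - 1 = _
      rw [hfix]
    have h1 : Nat.card (Fd φ 1)ˣ = q - 1 := by
      rw [Nat.card_units]
      show Nat.card (fixF φ) - 1 = _
      rw [hfix]
    have h2 : Nat.card (Fd φ 2)ˣ = q ^ 2 - 1 := by
      rw [Nat.card_units]
      show Nat.card (⊤ : Subfield K) - 1 = _
      rw [htop]
    have h3 : Nat.card (Fd φ 3)ˣ = q ^ 2 - 1 := by
      rw [Nat.card_units]
      show Nat.card (⊤ : Subfield K) - 1 = _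
      rw [htop]
    rw [h0, h1, h2, h3]
  have hgal : Nat.card (K ≃+* K) = 2 * f := by
    have := Cfsg.Agent.Lib.KS71.PSLAutGroup.card_ringEquiv (F := K) (p := p) (f := 2 * f) hK (by omega)
    exact this
  have key2 : Nat.card ↥(chevE6.diagonalSubgroup K ⊓ twistedE6 K q) * Nat.card (Cfsg.Out ↥(twistedE6 K q)) =
      2 * f * ((q - 1) * (q - 1) * (q ^ 2 - 1) * (q ^ 2 - 1)) := by
    rw [← Inst.card_H1, ← hgal, ← hpi]
    exact key
  have hH := Cfsg.Agent.Lib.Twisted.E6H.card_H1 hq hK'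
  have hfac : q ^ 2 - 1 = (q - 1) * (q + 1) := by
    obtain ⟨m, rfl⟩ : ∃ m, q = m + 1 := ⟨q - 1, by omega⟩
    simp only [Nat.add_sub_cancel]
    rw [show (m + 1) ^ 2 = m * (m + 1 + 1) + 1 by ring]
    simp
  have hpos : 0 < (q - 1) ^ 4 * (q + 1) ^ 2 := by
    apply Nat.mul_pos
    · exact pow_pos (by omega) _
    · exact pow_pos (by omega) _
  apply Nat.eq_of_mul_eq_mul_left hpos
  calc (q - 1) ^ 4 * (q + 1) ^ 2 * Nat.card (Cfsg.Out ↥(twistedE6 K q))
      = Nat.gcd 3 (q + 1) * (Nat.card ↥(chevE6.diagonalSubgroup K ⊓ twistedE6 K q) * Nat.card (Cfsg.Out ↥(twistedE6 K q))) := by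
        rw [← hH, mul_assoc]
    _ = _ := by
        rw [key2, hfac]
        ring

end Cfsg.Agent.Lib.TwAut.E6Aut
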