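import Cfsg.Agent.Lib.TwAut.Orbit

/-!
# Helpers for the instances of the automorphism theorem for twisted groups
-/

set_option autoImplicit false
set_option linter.unusedSectionVars false
set_option linter.unusedVariables false
set_option linter.ambiguousOpen false
set_option linter.dupNamespace false

namespace Cfsg.Agent.Lib.TwAut.Inst

open scoped MatrixGroups Matrix
open Cfsg Lie ChevalleyDatum
open Cfsg.Agent.Lib.Chev
open Tables Tables2 Tables3 Raise Basic AxBasic Torus Products Products2 Mono1 Mono2 Mono3 Bn Parab Unipotent SL2 SL2Chev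
open Cfsg.Agent.Lib.Twisted.Ortho
open Cfsg.Agent.Lib.TwAut.Rank1 Cfsg.Agent.Lib.TwAut.Orbit Cfsg.Agent.Lib.TwAut.Norm

variable {D : ChevalleyDatum} {K : Type*} [Field K]

/-- The fixed field of an automorphism. -/
def fixF (φ : K ≃+* K) : Subfield K where
  carrier := {t | φ t = t}
  mul_mem' := by
    intro a b (ha : φ a = a) (hb : φ b = b)
    show φ (a * b) = a * b
    rw [map_mul, ha, hb]
  one_mem' := map_one φ
  add_mem' := by
    intro a b (ha : φ a = a) (hb : φ b = b)
    show φ (a + b) = a + b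
    rw [map_add, ha, hb]
  zero_mem' := map_zero φ
  neg_mem' := by
    intro a (ha : φ a = a)
    show φ (-a) = -a
    rw [map_neg, ha]
  inv_mem' := by
    intro a (ha : φ a = a)
    show φ a⁻¹ = a⁻¹
    rw [map_inv₀, ha]

lemma mem_fixF {φ : K ≃+* K} {t : K} : t ∈ fixF φ ↔ φ t = t := Iff.rfl

variable (ax : Ax D K) (φ : K ≃+* K)

/-- `nw` as a product along an orbit. -/
lemma nw_eq_prodN (l : List ℕ) : nw D ax l = prodN ax φ (l.map D.simple) 1 := by
  induction l with
  | nil => simp [nw_nil]
  | cons i l ih =>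
    rw [nw_cons, ih, List.map_cons, prodN_cons, map_one]
    rfl

/-- Elements acting by scalars along an orbit. -/
def ScaleOK (g : GL D.Idx K) : List ℕ → K → Prop
  | [], _ => True
  | r :: L, μ => (∀ v, g * xG ax r v * g⁻¹ = xG ax r (μ * v)) ∧ ScaleOK g L (φ μ)

lemma conj_prodL {g : GL D.Idx K} {L : List ℕ} {μ : K} (H : ScaleOK ax φ g L μ) (t : K) :
    g * prodL ax φ L t * g⁻¹ = prodL ax φ L (μ * t) := by
  induction L generalizing μ t with
  | nil => simp
  | cons r L ih =>
    obtain ⟨h1, h3⟩ := H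
    have e : g * (xG ax r t * prodL ax φ L (φ t)) * g⁻¹ =
        (g * xG ax r t * g⁻¹) * (g * prodL ax φ L (φ t) * g⁻¹) := by group
    rw [prodL_cons, e, h1, ih h3, prodL_cons, map_mul]

/-- A simple group which is not commutative has a trivial centre. -/
lemma center_eq_bot {G : Type*} [Group G] (h : IsSimpleGroup G ∧ ¬ IsMulCommutative G) : Subgroup.center G = ⊥ := by
  obtain ⟨h1, h3⟩ := h
  rcases h1.eq_bot_or_eq_top_of_normal _ (inferInstance : (Subgroup.center G).Normal) with e | e
  · exact e
  · exfalso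
    apply h3
    refine ⟨⟨fun a b => ?_⟩⟩
    have : a ∈ Subgroup.center G := by rw [e]; trivial
    exact (Subgroup.mem_center_iff.mp this b).symm

/-- The order of `H¹`. -/
lemma card_H1 (G1 : Subgroup (GL D.Idx K)) : Nat.card (H1 D K G1) = Nat.card ↥(D.diagonalSubgroup K ⊓ G1) := by
  apply Nat.card_congr
  exact
    { toFun := fun x => ⟨x.1.1, x.2, x.1.2⟩
      invFun := fun x => ⟨⟨x.1, x.2.2⟩, x.2.1⟩
      left_inv := fun x => rfl
      right_inv := fun x => rfl }

end Cfsg.Agent.Lib.TwAut.Inst
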