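import Cfsg.Agent.Lib.TwAut.Abs
import Cfsg.Agent.Lib.Twisted.More

/-!
# Automorphisms of twisted groups: normalization

Up to an inner automorphism, an automorphism of `G¹` preserves `U¹` and `V¹`.
-/

set_option autoImplicit false
set_option linter.unusedSectionVars false
set_option linter.unusedVariables false
set_option linter.ambiguousOpen false
set_option linter.dupNamespace false

namespace Cfsg.Agent.Lib.TwAut.Norm

open scoped MatrixGroups Matrix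
open Cfsg Lie ChevalleyDatum
open Cfsg.Agent.Lib.Chev
open Tables Tables2 Tables3 Raise Basic AxBasic Torus Products Products2 Mono1 Mono2 Mono3 Bn
open Cfsg.Agent.Lib.Twisted.Fact Cfsg.Agent.Lib.Twisted.Bruhat Cfsg.Agent.Lib.Twisted.Tw
open Cfsg.Agent.Lib.Twisted.Struct
open Cfsg.Agent.Lib.BNPair.Basic

variable {D : ChevalleyDatum} {K : Type*} [Field K]

/-- `U¹` -/
abbrev U1 (D : ChevalleyDatum) (K : Type*) [Field K] (G1 : Subgroup (GL D.Idx K)) : Subgroup ↥G1 :=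
  (D.posUnipotent K).subgroupOf G1

/-- `V¹` -/
abbrev V1 (D : ChevalleyDatum) (K : Type*) [Field K] (G1 : Subgroup (GL D.Idx K)) : Subgroup ↥G1 :=
  (D.negUnipotent K).subgroupOf G1

/-- `H¹` -/
abbrev H1 (D : ChevalleyDatum) (K : Type*) [Field K] (G1 : Subgroup (GL D.Idx K)) : Subgroup ↥G1 :=
  (D.diagonalSubgroup K).subgroupOf G1

section gl

variable (h : Tab D) (ax : Ax D K)

include h ax

lemma borel_conj_U {x u : GL D.Idx K} (hx : x ∈ D.borelSubgroup K) (hu : u ∈ D.posUnipotent K) :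
    x * u * x⁻¹ ∈ D.posUnipotent K := by
  obtain ⟨v, hv, a, ha, rfl⟩ := (mem_borel_iff ax h).mp hx
  have e : (v * a) * u * (v * a)⁻¹ = v * (a * u * a⁻¹) * v⁻¹ := by group
  rw [e]
  exact Subgroup.mul_mem _ (Subgroup.mul_mem _ hv (diagonal_conj_U ax h ha hu)) (Subgroup.inv_mem _ hv)

lemma borel_conj_U_iff {x u : GL D.Idx K} (hx : x ∈ D.borelSubgroup K) :
    u ∈ D.posUnipotent K ↔ x * u * x⁻¹ ∈ D.posUnipotent K := by
  refine ⟨borel_conj_U h ax hx, fun hu => ?_⟩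
  have := borel_conj_U h ax (Subgroup.inv_mem _ hx) hu
  simpa [mul_assoc] using this

end gl

variable {h : Tab D} {ax : Ax D K} {tw : Tw h ax} {G1 : Subgroup (GL D.Idx K)} (T : TD h ax tw G1) (h2 : Tab2 D)

include T

/-- The element `n₀` of `G¹`. -/
def n0g : ↥G1 := ⟨T.n₀, T.n₀_mem⟩

omit T in
lemma U1_inf_V1 (h : Tab D) (ax : Ax D K) (u : ↥G1) (hU : u ∈ U1 D K G1) (hV : u ∈ V1 D K G1) : u = 1 := by
  have : (u : GL D.Idx K) ∈ D.borelSubgroup K ⊓ D.negUnipotent K :=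
    ⟨(le_sup_left : D.posUnipotent K ≤ D.borelSubgroup K) hU, hV⟩
  rw [borel_inf_V ax h, Subgroup.mem_bot] at this
  exact Subtype.ext this

/-- Elements of the Borel subgroup normalize `U¹`. -/
lemma norm_of_borel {x : ↥G1} (hx : (x : GL D.Idx K) ∈ D.borelSubgroup K) (u : ↥G1) :
    u ∈ U1 D K G1 ↔ x * u * x⁻¹ ∈ U1 D K G1 := by
  rw [Subgroup.mem_subgroupOf, Subgroup.mem_subgroupOf, borel_conj_U_iff h ax hx]
  simp

include h2

/-- An element normalizing `U¹` lies in the Borel subgroup. -/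
theorem borel_of_norm {x : ↥G1} (hx : ∀ u : ↥G1, u ∈ U1 D K G1 ↔ x * u * x⁻¹ ∈ U1 D K G1) :
    (x : GL D.Idx K) ∈ D.borelSubgroup K := by
  set P := T.bnPair h2 with hP
  -- the normalizer as a subgroup
  let M : Subgroup ↥G1 :=
    { carrier := {y | ∀ u : ↥G1, u ∈ U1 D K G1 ↔ y * u * y⁻¹ ∈ U1 D K G1}
      one_mem' := by intro u; simp
      mul_mem' := by
        intro a b ha hb u
        rw [hb u, ha (b * u * b⁻¹)]
        have : a * b * u * (a * b)⁻¹ = a * (b * u * b⁻¹) * a⁻¹ := by group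
        rw [this]
      inv_mem' := by
        intro a ha u
        rw [ha (a⁻¹ * u * a⁻¹⁻¹)]
        have : a * (a⁻¹ * u * a⁻¹⁻¹) * a⁻¹ = u := by group
        rw [this] }
  have hBM : P.B ≤ M := by
    intro b hb
    have hb' : (b : GL D.Idx K) ∈ D.borelSubgroup K := (Subgroup.mem_subgroupOf.mp hb).1
    exact fun u => norm_of_borel T hb' u
  have hno : ∀ s, s ∈ P.S → s ∉ M := by
    rintro s ⟨j, hj⟩ hs
    obtain ⟨y, hy, hyG, hy1⟩ := T.x_ne j
    have h1 : (⟨y, hyG⟩ : ↥G1) ∈ U1 D K G1 := by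
      rw [Subgroup.mem_subgroupOf]
      exact psi_le_U ax _ hy
    have h3 := (hs ⟨y, hyG⟩).mp h1
    rw [Subgroup.mem_subgroupOf] at h3
    have h4 : (T.n j) * y * (T.n j)⁻¹ ∈ D.posUnipotent K := by
      simpa [hj] using h3
    have h5 : (T.n j) * y * (T.n j)⁻¹ ∈ D.borelSubgroup K ⊓ D.negUnipotent K :=
      ⟨(le_sup_left : D.posUnipotent K ≤ D.borelSubgroup K) h4, npsi_le_V h ax _ (T.n_conj_psi j hy)⟩
    rw [borel_inf_V ax h, Subgroup.mem_bot] at h5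
    apply hy1
    have e : y = (T.n j)⁻¹ * (T.n j * y * (T.n j)⁻¹) * T.n j := by group
    rw [e, h5]
    group
  have hMB : M ≤ P.B := by
    have h1 := eq_parabolic hBM
    rw [h1]
    apply sup_le le_rfl
    rw [Subgroup.closure_le]
    rintro s ⟨hs, hsM⟩
    exact absurd hsM (hno s hs)
  exact (Subgroup.mem_subgroupOf.mp (hMB (show x ∈ M from hx))).1

omit h2 in
/-- `v ∈ V¹` iff `n₀⁻¹ v n₀ ∈ U¹`. -/
lemma mem_V1_iff (h2 : Tab2 D) (v : ↥G1) : v ∈ V1 D K G1 ↔ (n0g T)⁻¹ * v * n0g T ∈ U1 D K G1 := by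
  rw [Subgroup.mem_subgroupOf, Subgroup.mem_subgroupOf]
  simp only [Subgroup.coe_mul, InvMemClass.coe_inv, n0g]
  constructor
  · intro hv
    exact T.n₀_conj_V h2 hv
  · intro hu
    obtain ⟨c, H⟩ := T.n₀_nor
    have e : (v : GL D.Idx K) = T.n₀ * (T.n₀⁻¹ * v * T.n₀) * T.n₀⁻¹ := by group
    rw [e]
    rw [posUnipotent_eq ax] at hu
    rw [negUnipotent_eq ax]
    exact conj_closure H (fun r hr => hr.1) (fun r hr => T.n₀_neg r hr) hu

include T in
/-- `v ∈ U¹` iff `n₀ v n₀⁻¹ ∈ V¹`. -/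
lemma mem_U1_iff (u : ↥G1) : u ∈ U1 D K G1 ↔ n0g T * u * (n0g T)⁻¹ ∈ V1 D K G1 := by
  rw [mem_V1_iff T h2 (n0g T * u * (n0g T)⁻¹)]
  have e : (n0g T)⁻¹ * (n0g T * u * (n0g T)⁻¹) * n0g T = u := by group
  rw [e]

/-- `v ∈ V¹` iff `n v n⁻¹ ∈ V¹` for `n` in the Borel subgroup conjugated by `n₀`. -/
theorem mem_H_iff (x : ↥G1) : x ∈ H1 D K G1 ↔
    (∀ u, u ∈ U1 D K G1 ↔ x * u * x⁻¹ ∈ U1 D K G1) ∧ (∀ v, v ∈ V1 D K G1 ↔ x * v * x⁻¹ ∈ V1 D K G1) := by
  set m := n0g T with hm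
  obtain ⟨c₀, H₀⟩ := T.n₀_nor
  constructor
  · intro hx
    have hxH : (x : GL D.Idx K) ∈ D.diagonalSubgroup K := hx
    refine ⟨norm_of_borel T ((le_sup_right : D.diagonalSubgroup K ≤ _) hxH), fun v => ?_⟩
    rw [Subgroup.mem_subgroupOf, Subgroup.mem_subgroupOf]
    simp only [Subgroup.coe_mul, InvMemClass.coe_inv]
    constructor
    · intro hv
      exact diagonal_conj_V ax h hxH hv
    · intro hv
      have := diagonal_conj_V ax h (Subgroup.inv_mem _ hxH) hv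
      simpa [mul_assoc] using this
  · rintro ⟨hU, hV⟩
    have hB := borel_of_norm T h2 hU
    -- the conjugate by `n₀`
    have hU' : ∀ u : ↥G1, u ∈ U1 D K G1 ↔ (m⁻¹ * x * m) * u * (m⁻¹ * x * m)⁻¹ ∈ U1 D K G1 := by
      intro u
      rw [mem_U1_iff T h2 u, ← hm, hV, mem_U1_iff T h2 ((m⁻¹ * x * m) * u * (m⁻¹ * x * m)⁻¹), ← hm]
      have e : m * (m⁻¹ * x * m * u * (m⁻¹ * x * m)⁻¹) * m⁻¹ = x * (m * u * m⁻¹) * x⁻¹ := by group
      rw [e]
    have hB2 := borel_of_norm T h2 hU'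
    obtain ⟨u, hu, a, ha, e⟩ := (mem_borel_iff ax h).mp hB2
    have e1 : (x : GL D.Idx K) = (T.n₀ * u * T.n₀⁻¹) * (T.n₀ * a * T.n₀⁻¹) := by
      have e2 : (x : GL D.Idx K) = T.n₀ * (((m⁻¹ * x * m : ↥G1)) : GL D.Idx K) * T.n₀⁻¹ := by
        simp only [hm, n0g, Subgroup.coe_mul, InvMemClass.coe_inv]
        group
      rw [e2, e]
      group
    have hxVH : (x : GL D.Idx K) ∈ D.negUnipotent K ⊔ D.diagonalSubgroup K := by
      rw [e1]
      refine Subgroup.mul_mem _ ?_ ?_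
      · apply (le_sup_left : D.negUnipotent K ≤ _)
        rw [posUnipotent_eq ax] at hu
        rw [negUnipotent_eq ax]
        exact conj_closure H₀ (fun r hr => hr.1) (fun r hr => T.n₀_neg r hr) hu
      · exact (le_sup_right : D.diagonalSubgroup K ≤ _) (H₀.conj_mem_H h ax ha)
    show (x : GL D.Idx K) ∈ D.diagonalSubgroup K
    rw [← borel_inf_VH ax h]
    exact ⟨hB, hxVH⟩

/-- The Bruhat decomposition `G¹ = U¹ N¹ U¹`. -/
theorem bruhat1 (y : ↥G1) : ∃ b ∈ U1 D K G1, ∃ n ∈ {n : ↥G1 | (n : GL D.Idx K) ∈ D.monomialSubgroup K},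
    ∃ c ∈ U1 D K G1, y = b * n * c := by
  set P := T.bnPair h2 with hP
  obtain ⟨n, hn, hy⟩ := exists_mem_dc (P := P) y
  obtain ⟨b, hb, b', hb', e⟩ := mem_dc.mp hy
  have hb1 := Subgroup.mem_subgroupOf.mp hb
  have hb1' := Subgroup.mem_subgroupOf.mp hb'
  have hn1 := Subgroup.mem_subgroupOf.mp hn
  obtain ⟨u, hu, a, ha, e1⟩ := T.B1_form h2 hb1.1 hb1.2
  obtain ⟨u', hu', a', ha', e2⟩ := T.B1_form h2 (Subgroup.inv_mem _ hb1'.1) (Subgroup.inv_mem _ hb1'.2)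
  -- `b' = a'⁻¹ u'⁻¹`
  have e3 : (b' : GL D.Idx K) = a'⁻¹ * u'⁻¹ := by
    have : ((b' : GL D.Idx K))⁻¹ = u' * a' := e2
    rw [← mul_inv_rev, ← this, inv_inv]
  refine ⟨⟨u, hu.2⟩, hu.1, ⟨a, ha.2⟩ * n * ⟨a'⁻¹, Subgroup.inv_mem _ ha'.2⟩, ?_, ⟨u'⁻¹, Subgroup.inv_mem _ hu'.2⟩,
    Subgroup.inv_mem _ hu'.1, ?_⟩
  · show ((a : GL D.Idx K) * n * a'⁻¹) ∈ D.monomialSubgroup K
    exact Subgroup.mul_mem _ (Subgroup.mul_mem _ ((le_sup_left : _ ≤ D.monomialSubgroup K) ha.1) hn1.1)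
      (Subgroup.inv_mem _ ((le_sup_left : _ ≤ D.monomialSubgroup K) ha'.1))
  · apply Subtype.ext
    rw [e]
    simp only [Subgroup.coe_mul]
    rw [e1, e3]
    group

/-- If `n ∈ N¹` with `U¹ ∩ nU¹n⁻¹ = 1`, then `nU¹n⁻¹ = V¹`. -/
theorem conj_U_eq_V {n : ↥G1} (hn : (n : GL D.Idx K) ∈ D.monomialSubgroup K)
    (hu : ∀ u ∈ U1 D K G1, n * u * n⁻¹ ∈ U1 D K G1 → u = 1) (v : ↥G1) :
    v ∈ V1 D K G1 ↔ n⁻¹ * v * n ∈ U1 D K G1 := by
  obtain ⟨π, c, H⟩ := exists_isNor h h2 ax hn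
  have hF : (n : GL D.Idx K) ∈ tw.Fx := T.G1_le n.2
  have hcomm := tw.comm_rho_of_fix h2 hF H
  have hcl : ∀ j, ∀ r : Fin D.nroots, Psi D (T.J j) r → D.IsNegRoot (π r) := by
    intro j
    rcases T.dichotomy h2 hn H hcomm j with h3 | h3
    · exfalso
      obtain ⟨y, hy, hyG, hy1⟩ := T.x_ne j
      apply hy1
      have h1 : (⟨y, hyG⟩ : ↥G1) ∈ U1 D K G1 := by
        rw [Subgroup.mem_subgroupOf]
        exact psi_le_U ax _ hy
      have h5 := hu _ h1 (by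
        rw [Subgroup.mem_subgroupOf, posUnipotent_eq ax]
        simp only [Subgroup.coe_mul, InvMemClass.coe_inv]
        exact conj_closure H (fun r hr => hr.1.1) (fun r hr => h3 r hr) hy)
      exact congrArg Subtype.val h5
    · exact h3
  have hneg : ∀ r : Fin D.nroots, D.IsPosRoot r → D.IsNegRoot (π r) := by
    intro r hr
    apply pi_neg_of_support h2 hn H hr
    intro k hk _
    obtain ⟨j, hj⟩ := T.cover k hk
    exact hcl j _ (T.simple_psi j hk hj)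
  have hinvpos : ∀ r : Fin D.nroots, D.IsNegRoot r → D.IsPosRoot (π⁻¹ r) := by
    intro r hr
    by_contra hnp
    have h3 := (not_isPos_iff h (π⁻¹ r).isLt).mp hnp
    have h4 : D.IsPosRoot (negF h (π⁻¹ r)) := (isPosRoot_neg h (π⁻¹ r).isLt).mpr h3
    have h5 := hneg _ h4
    rw [H.neg] at h5
    rw [show π (π⁻¹ r) = r by simp] at h5
    have h6 : D.IsPosRoot (negF h r) := (isPosRoot_neg h r.isLt).mpr hr
    exact not_isNeg_of_isPos h h6 h5
  rw [Subgroup.mem_subgroupOf, Subgroup.mem_subgroupOf]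
  simp only [Subgroup.coe_mul, InvMemClass.coe_inv]
  constructor
  · intro hv
    rw [negUnipotent_eq ax] at hv
    rw [posUnipotent_eq ax]
    exact conj_closure' H (fun r hr => hr.1) (fun r hr => hinvpos r hr) hv
  · intro hu'
    have e : (v : GL D.Idx K) = (n : GL D.Idx K) * ((n : GL D.Idx K)⁻¹ * v * (n : GL D.Idx K)) * (n : GL D.Idx K)⁻¹ := by group
    rw [e]
    rw [posUnipotent_eq ax] at hu'
    rw [negUnipotent_eq ax]
    exact conj_closure H (fun r hr => hr.1) (fun r hr => hneg r hr) hu'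

section finite

variable [Finite K]

/-- `U¹` is a Sylow subgroup. -/
theorem exists_sylow_U1 (p : ℕ) [Fact p.Prime] [CharP K p] :
    ∃ P₀ : Sylow p ↥G1, (P₀ : Subgroup ↥G1) = U1 D K G1 := by
  classical
  have := Fintype.ofFinite K
  have hfin : Finite ↥G1 := inferInstance
  have hpp : p.Prime := Fact.out
  obtain ⟨n, hp, e⟩ := FiniteField.card K p
  have hUp : IsPGroup p ↥(D.posUnipotent K) := by
    apply IsPGroup.of_card (n := n * (D.nroots / 2))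
    rw [Products2.card_U ax h h2, e, pow_mul]
  have hU1 : IsPGroup p ↥(U1 D K G1) := by
    refine hUp.of_injective (ϕ := { toFun := fun u => ⟨(u : ↥G1), u.2⟩, map_one' := rfl, map_mul' := fun a b => rfl }) ?_
    intro a b e
    apply Subtype.ext
    apply Subtype.ext
    exact congrArg (fun z : ↥(D.posUnipotent K) => (z : GL D.Idx K)) e
  obtain ⟨S, hS⟩ := hU1.exists_le_sylow
  refine ⟨S, ?_⟩
  by_contra hne
  have hSp := S.isPGroup'
  have hnil : Group.IsNilpotent ↥(S : Subgroup ↥G1) := hSp.isNilpotent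
  have hcond := Group.normalizerCondition_of_isNilpotent (G := ↥(S : Subgroup ↥G1))
  have hlt : (U1 D K G1).subgroupOf (S : Subgroup ↥G1) < ⊤ := by
    rw [lt_top_iff_ne_top]
    intro ht
    apply hne
    apply le_antisymm _ hS
    intro x hx
    have : (⟨x, hx⟩ : ↥(S : Subgroup ↥G1)) ∈ (U1 D K G1).subgroupOf (S : Subgroup ↥G1) := by
      rw [ht]; trivial
    exact Subgroup.mem_subgroupOf.mp this
  obtain ⟨hle, hnot⟩ := SetLike.lt_iff_le_and_exists.mp (hcond _ hlt)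
  obtain ⟨x, hx, hxB⟩ := hnot
  apply hxB
  rw [Subgroup.mem_subgroupOf]
  have hx' : ∀ y : ↥G1, y ∈ U1 D K G1 ↔ (x : ↥G1) * y * (x : ↥G1)⁻¹ ∈ U1 D K G1 := by
    rw [Subgroup.mem_normalizer_iff] at hx
    intro y
    constructor
    · intro hy
      have hyS : y ∈ (S : Subgroup ↥G1) := hS hy
      have h1 := (hx ⟨y, hyS⟩).mp (Subgroup.mem_subgroupOf.mpr hy)
      exact Subgroup.mem_subgroupOf.mp h1
    · intro hy
      have hyS : y ∈ (S : Subgroup ↥G1) := by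
        have h3 : (x : ↥G1) * y * (x : ↥G1)⁻¹ ∈ (S : Subgroup ↥G1) := hS hy
        have h4 : y = (x : ↥G1)⁻¹ * ((x : ↥G1) * y * (x : ↥G1)⁻¹) * (x : ↥G1) := by group
        rw [h4]
        exact Subgroup.mul_mem _ (Subgroup.mul_mem _ (Subgroup.inv_mem _ x.2) h3) x.2
      have h1 := (hx ⟨y, hyS⟩).mpr (Subgroup.mem_subgroupOf.mpr hy)
      exact Subgroup.mem_subgroupOf.mp h1
  have hB := borel_of_norm T h2 hx'
  obtain ⟨u, hu, a, ha, e1⟩ := T.B1_form h2 hB (x : ↥G1).2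
  -- `a` lies in `S` and has order prime to `p`
  have haS : (⟨a, ha.2⟩ : ↥G1) ∈ (S : Subgroup ↥G1) := by
    have : (⟨a, ha.2⟩ : ↥G1) = (⟨u, hu.2⟩ : ↥G1)⁻¹ * (x : ↥G1) := by
      apply Subtype.ext
      simp only [Subgroup.coe_mul, InvMemClass.coe_inv]
      rw [e1]
      group
    rw [this]
    exact Subgroup.mul_mem _ (Subgroup.inv_mem _ (hS hu.1)) x.2
  obtain ⟨k, hk⟩ := (IsPGroup.iff_orderOf.mp hSp) ⟨_, haS⟩
  have hak : a ^ (p ^ k) = 1 := by
    have h3 := pow_orderOf_eq_one (⟨_, haS⟩ : ↥(S : Subgroup ↥G1))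
    rw [hk] at h3
    have h4 := congrArg (fun z : ↥(S : Subgroup ↥G1) => (((z : ↥G1)) : GL D.Idx K)) h3
    simpa using h4
  obtain ⟨y, hy⟩ := exists_tor_of_mem ax h ha.1
  have hae : a ^ (Nat.card Kˣ) = 1 := by
    rw [hy]
    have h5 : (tor D y) ^ (Nat.card Kˣ) = tor D (y ^ (Nat.card Kˣ)) := by
      have := map_pow (torHom D (F := K)) y (Nat.card Kˣ)
      exact this.symm
    rw [h5]
    have h6 : y ^ (Nat.card Kˣ) = 1 := by
      funext i
      simp only [Pi.pow_apply, Pi.one_apply]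
      exact pow_card_eq_one'
    rw [h6, tor_one]
  have hcop : Nat.Coprime (p ^ k) (Nat.card Kˣ) := by
    apply Nat.Coprime.pow_left
    rw [Nat.Prime.coprime_iff_not_dvd hpp, Nat.card_units, Nat.card_eq_fintype_card, e]
    intro h1
    have hp' : p ∣ p ^ (n : ℕ) := dvd_pow_self p n.ne_zero
    have h2' : p ∣ 1 := by
      have h3 := (Nat.dvd_sub hp' h1)
      have hpos : 1 ≤ p ^ (n : ℕ) := Nat.one_le_pow _ _ hpp.pos
      rwa [Nat.sub_sub_self hpos] at h3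
    exact hpp.one_lt.ne' (Nat.dvd_one.mp h2')
  have ha1 : a = 1 := by
    have := pow_gcd_eq_one.mpr ⟨hak, hae⟩
    rw [hcop] at this
    simpa using this
  rw [ha1, mul_one] at e1
  show ((x : ↥G1) : GL D.Idx K) ∈ D.posUnipotent K
  rw [e1]
  exact hu.1

/-- Up to an inner automorphism, an automorphism of `G¹` preserves `U¹` and `V¹`. -/
theorem exists_normalized (θ : ↥G1 ≃* ↥G1) : ∃ (x : ↥G1) (σ : ↥G1 ≃* ↥G1), (∀ y, θ y = x * σ y * x⁻¹) ∧
    (∀ u, u ∈ U1 D K G1 ↔ σ u ∈ U1 D K G1) ∧ (∀ v, v ∈ V1 D K G1 ↔ σ v ∈ V1 D K G1) := by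
  classical
  have := Fintype.ofFinite K
  obtain ⟨p, hp⟩ := CharP.exists K
  have hpp : p.Prime := by
    rcases CharP.char_is_prime_or_zero K p with h' | h'
    · exact h'
    · subst h'
      exact absurd (CharP.charP_to_charZero K) (by
        intro hz
        exact not_finite K)
  have : Fact p.Prime := ⟨hpp⟩
  obtain ⟨P₀, hP₀⟩ := exists_sylow_U1 T h2 p
  refine Abs.exists_normalized (U1 D K G1) (V1 D K G1) {n : ↥G1 | (n : GL D.Idx K) ∈ D.monomialSubgroup K} (n0g T)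
    (U1_inf_V1 h ax) (mem_V1_iff T h2) ?_ (bruhat1 T h2) ?_ θ
  · intro θ'
    have := Abs.exists_conj_of_sylow P₀ θ'
    rwa [hP₀] at this
  · intro n hn hu v
    exact conj_U_eq_V T h2 hn hu v

end finite

end Cfsg.Agent.Lib.TwAut.Norm
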