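import Cfsg.Agent.Lib.TwAut.Count
import Cfsg.Agent.Lib.Twisted.Ortho

/-!
# Root elements along an orbit of commuting roots

The elements `x_{r₀}(t) x_{r₁}(φ t) x_{r₂}(φ² t) ⋯` for pairwise orthogonal roots.
-/

set_option autoImplicit false
set_option linter.unusedSectionVars false
set_option linter.unusedVariables false
set_option linter.ambiguousOpen false
set_option linter.dupNamespace false

namespace Cfsg.Agent.Lib.TwAut.Orbit

open scoped MatrixGroups Matrix
open Cfsg Lie ChevalleyDatum
open Cfsg.Agent.Lib.Chev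
open Tables Tables2 Tables3 Raise Basic AxBasic Torus Products Products2 Mono1 Mono2 Mono3 Bn Parab Unipotent SL2 SL2Chev
open Cfsg.Agent.Lib.Twisted.Ortho
open Cfsg.Agent.Lib.KS71.ChevFix (mapX mapX_xG)
open Cfsg.Agent.Lib.Steinberg.AutExist (dU dU_conj_xG isRootCharacter_inv dU_inv)
open Cfsg.Agent.Lib.Lie.Facts (IsData)
open Cfsg.Agent.Lib.TwAut.Rank1

variable {D : ChevalleyDatum} {K : Type*} [Field K]

variable (ax : Ax D K) (φ : K ≃+* K)

/-- The product along an orbit. -/
noncomputable def prodL : List ℕ → K → GL D.Idx K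
  | [], _ => 1
  | r :: L, t => xG ax r t * prodL L (φ t)

/-- The product of the `n`'s along an orbit. -/
noncomputable def prodN : List ℕ → K → GL D.Idx K
  | [], _ => 1
  | r :: L, t => nG ax r t * prodN L (φ t)

/-- The product of the `h`'s along an orbit. -/
noncomputable def prodH : List ℕ → K → GL D.Idx K
  | [], _ => 1
  | r :: L, t => hG ax r t * prodH L (φ t)

@[simp] lemma prodL_nil (t : K) : prodL ax φ [] t = 1 := rfl
@[simp] lemma prodL_cons (r : ℕ) (L : List ℕ) (t : K) : prodL ax φ (r :: L) t = xG ax r t * prodL ax φ L (φ t) := rfl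
@[simp] lemma prodN_nil (t : K) : prodN ax φ [] t = 1 := rfl
@[simp] lemma prodN_cons (r : ℕ) (L : List ℕ) (t : K) : prodN ax φ (r :: L) t = nG ax r t * prodN ax φ L (φ t) := rfl
@[simp] lemma prodH_nil (t : K) : prodH ax φ [] t = 1 := rfl
@[simp] lemma prodH_cons (r : ℕ) (L : List ℕ) (t : K) : prodH ax φ (r :: L) t = hG ax r t * prodH ax φ L (φ t) := rfl

/-- The negatives of a list of roots. -/
def negL (D : ChevalleyDatum) (L : List ℕ) : List ℕ := L.map D.neg

/-- All the pairs of roots `± r`, `± s` commute. -/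
def Orth (D : ChevalleyDatum) (r s : ℕ) : Prop :=
  CommPair D r s ∧ CommPair D r (D.neg s) ∧ CommPair D (D.neg r) s ∧ CommPair D (D.neg r) (D.neg s)

instance (r s : ℕ) : Decidable (Orth D r s) := by
  unfold Orth; infer_instance

/-- A list of pairwise orthogonal roots. -/
def Good (D : ChevalleyDatum) (L : List ℕ) : Prop :=
  (∀ r ∈ L, r < D.nroots) ∧ L.Pairwise (Orth D)

instance (L : List ℕ) : Decidable (Good D L) := by
  unfold Good; infer_instance

lemma Good.cons {r : ℕ} {L : List ℕ} (H : Good D (r :: L)) :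
    r < D.nroots ∧ (∀ s ∈ L, Orth D r s) ∧ Good D L := by
  obtain ⟨h1, h3⟩ := H
  rw [List.pairwise_cons] at h3
  exact ⟨h1 r (by simp), h3.1, fun s hs => h1 s (by simp [hs]), h3.2⟩

lemma comm_prodL {x : GL D.Idx K} (L : List ℕ) (hx : ∀ s ∈ L, ∀ u, Commute x (xG ax s u)) (t : K) :
    Commute x (prodL ax φ L t) := by
  induction L generalizing t with
  | nil => exact Commute.one_right _
  | cons r L ih =>
    rw [prodL_cons]
    exact (hx r (by simp) _).mul_right (ih (fun s hs => hx s (by simp [hs])) _)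

section rel

variable (h : Tab D) (h2 : Tab2 D)

include h h2

variable {F : Type*} [Field F]

/-- The rank one relations along an orbit. -/
theorem rel_prodL {L : List ℕ} (hL : Good D L) (ι : F →+* K) :
    RankOneRel (fun t => prodL ax φ L (ι t)) (fun t => prodL ax φ (negL D L) (ι t)) := by
  induction L generalizing ι with
  | nil =>
    refine ⟨fun a b => ?_, fun a b => ?_, fun t u ht => ?_, fun t u ht => ?_, fun a b ha hb => ?_⟩ <;>
      simp [negL, WW, HH]
  | cons r L ih =>
    obtain ⟨hr, hs, hg⟩ := hL.cons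
    have R₁ := RankOneRel.comp (rankOneRel h h2 ax hr) ι
    have R₂ := ih hg ((φ : K →+* K).comp ι)
    exact RankOneRel.mul R₁ R₂
      (fun a b => comm_prodL ax φ L (fun s hs' u => ((hs s hs').1.comm ax _ _).symm) _)
      (fun a b => comm_prodL ax φ _ (fun s hs' u => by
        obtain ⟨s', hs'', rfl⟩ := List.mem_map.mp hs'
        exact ((hs s' hs'').2.1.comm ax _ _).symm) _)
      (fun a b => comm_prodL ax φ L (fun s hs' u => ((hs s hs').2.2.1.comm ax _ _).symm) _)
      (fun a b => comm_prodL ax φ _ (fun s hs' u => by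
        obtain ⟨s', hs'', rfl⟩ := List.mem_map.mp hs'
        exact ((hs s' hs'').2.2.2.comm ax _ _).symm) _)

/-- `w(t)` along an orbit. -/
theorem WW_prodL {L : List ℕ} (hL : Good D L) (ι : F →+* K) (t : F) :
    WW (fun t => prodL ax φ L (ι t)) (fun t => prodL ax φ (negL D L) (ι t)) t = prodN ax φ L (ι t) := by
  induction L generalizing ι with
  | nil => simp [negL, WW]
  | cons r L ih =>
    obtain ⟨hr, hs, hg⟩ := hL.cons
    have e := WW_mul (X₁ := fun t => xG ax r (ι t)) (Y₁ := fun t => xG ax (D.neg r) (ι t))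
      (X₂ := fun t => prodL ax φ L (φ (ι t))) (Y₂ := fun t => prodL ax φ (negL D L) (φ (ι t)))
      (fun a b => comm_prodL ax φ L (fun s hs' u => ((hs s hs').1.comm ax _ _).symm) _)
      (fun a b => comm_prodL ax φ L (fun s hs' u => ((hs s hs').2.2.1.comm ax _ _).symm) _)
      (fun a b => comm_prodL ax φ _ (fun s hs' u => by
        obtain ⟨s', hs'', rfl⟩ := List.mem_map.mp hs'
        exact ((hs s' hs'').2.1.comm ax _ _).symm) _) t
    have e2 := ih hg ((φ : K →+* K).comp ι)
    have e3 : WW (fun t => xG ax r (ι t)) (fun t => xG ax (D.neg r) (ι t)) t = nG ax r (ι t) := by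
      simp [WW, nG]
    simp only [RingHom.comp_apply] at e2
    rw [prodN_cons, ← e3]
    rw [show WW (fun t => prodL ax φ (r :: L) (ι t)) (fun t => prodL ax φ (negL D (r :: L)) (ι t)) t =
      WW (fun t => xG ax r (ι t) * prodL ax φ L (φ (ι t))) (fun t => xG ax (D.neg r) (ι t) * prodL ax φ (negL D L) (φ (ι t))) t from rfl, e]
    congr 1

/-- `h(t)` along an orbit. -/
theorem HH_prodL {L : List ℕ} (hL : Good D L) (ι : F →+* K) (t : F) :
    HH (fun t => prodL ax φ L (ι t)) (fun t => prodL ax φ (negL D L) (ι t)) t = prodH ax φ L (ι t) := by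
  induction L generalizing ι with
  | nil => simp [negL, HH, WW]
  | cons r L ih =>
    obtain ⟨hr, hs, hg⟩ := hL.cons
    have e := HH_mul (X₁ := fun t => xG ax r (ι t)) (Y₁ := fun t => xG ax (D.neg r) (ι t))
      (X₂ := fun t => prodL ax φ L (φ (ι t))) (Y₂ := fun t => prodL ax φ (negL D L) (φ (ι t)))
      (fun a b => comm_prodL ax φ L (fun s hs' u => ((hs s hs').1.comm ax _ _).symm) _)
      (fun a b => comm_prodL ax φ _ (fun s hs' u => by
        obtain ⟨s', hs'', rfl⟩ := List.mem_map.mp hs'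
        exact ((hs s' hs'').2.1.comm ax _ _).symm) _)
      (fun a b => comm_prodL ax φ L (fun s hs' u => ((hs s hs').2.2.1.comm ax _ _).symm) _)
      (fun a b => comm_prodL ax φ _ (fun s hs' u => by
        obtain ⟨s', hs'', rfl⟩ := List.mem_map.mp hs'
        exact ((hs s' hs'').2.2.2.comm ax _ _).symm) _) t
    have e2 := ih hg ((φ : K →+* K).comp ι)
    have e3 : HH (fun t => xG ax r (ι t)) (fun t => xG ax (D.neg r) (ι t)) t = hG ax r (ι t) := by
      simp [HH, WW, hG, nG]
    simp only [RingHom.comp_apply] at e2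
    rw [prodH_cons, ← e3]
    rw [show HH (fun t => prodL ax φ (r :: L) (ι t)) (fun t => prodL ax φ (negL D (r :: L)) (ι t)) t =
      HH (fun t => xG ax r (ι t) * prodL ax φ L (φ (ι t))) (fun t => xG ax (D.neg r) (ι t) * prodL ax φ (negL D L) (φ (ι t))) t from rfl, e]
    congr 1

omit h h2 in
/-- `h(t)` along an orbit is diagonal. -/
theorem prodH_mem {L : List ℕ} (hL : ∀ r ∈ L, r < D.nroots) {t : K} (ht : t ≠ 0) :
    prodH ax φ L t ∈ D.diagonalSubgroup K := by
  induction L generalizing t with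
  | nil => exact Subgroup.one_mem _
  | cons r L ih =>
    rw [prodH_cons]
    refine Subgroup.mul_mem _ (hG_mem_diagonal ax (hL r (by simp)) ht) (ih (fun s hs => hL s (by simp [hs])) ?_)
    simpa using ht

end rel

/-- The product along an orbit lies in a root closure. -/
lemma prodL_mem {P : ℕ → Prop} {L : List ℕ} (hL : ∀ r ∈ L, P r) (t : K) : prodL ax φ L t ∈ rootClosure ax P := by
  induction L generalizing t with
  | nil => exact Subgroup.one_mem _
  | cons r L ih =>
    rw [prodL_cons]
    exact Subgroup.mul_mem _ (xG_mem_rootClosure ax (hL r (by simp)) _) (ih (fun s hs => hL s (by simp [hs])) _)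

/-- Field automorphisms along an orbit. -/
lemma mapX_prodL (h : Tab D) (τ : K ≃+* K) (hc : ∀ t, τ (φ t) = φ (τ t)) (L : List ℕ) (t : K) :
    mapX D (τ : K →+* K) (prodL ax φ L t) = prodL ax φ L (τ t) := by
  induction L generalizing t with
  | nil => simp
  | cons r L ih =>
    rw [prodL_cons, prodL_cons, map_mul, mapX_xG ax ax, ih, hc]
    rfl

/-- The values of a character along an orbit. -/
def ChiOK (χ : ℕ → Kˣ) : List ℕ → K → Prop
  | [], _ => True
  | r :: L, c => (χ r : K) = c ∧ ChiOK χ L (φ c)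

lemma ChiOK_neg {χ : ℕ → Kˣ} (hχ : D.IsRootCharacter χ) {L : List ℕ} (hL : ∀ r ∈ L, r < D.nroots) {c : K}
    (H : ChiOK φ χ L c) : ChiOK φ χ (negL D L) c⁻¹ := by
  induction L generalizing c with
  | nil => trivial
  | cons r L ih =>
    obtain ⟨h1, h3⟩ := H
    refine ⟨?_, ?_⟩
    · rw [hχ.1 r (hL r (by simp)), ← h1]
      simp
    · rw [map_inv₀]
      exact ih (fun s hs => hL s (by simp [hs])) h3

lemma dU_conj_prodL (hD : IsData D) {χ : ℕ → Kˣ} (hχ : D.IsRootCharacter χ) {L : List ℕ} (hL : ∀ r ∈ L, r < D.nroots) {c : K}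
    (H : ChiOK φ χ L c) (t : K) : dU D K χ * prodL ax φ L t * (dU D K χ)⁻¹ = prodL ax φ L (c * t) := by
  induction L generalizing c t with
  | nil => simp
  | cons r L ih =>
    obtain ⟨h1, h3⟩ := H
    have e : dU D K χ * (xG ax r t * prodL ax φ L (φ t)) * (dU D K χ)⁻¹ =
        (dU D K χ * xG ax r t * (dU D K χ)⁻¹) * (dU D K χ * prodL ax φ L (φ t) * (dU D K χ)⁻¹) := by group
    rw [prodL_cons, e, dU_conj_xG hD ax hχ (hL r (by simp)), ih (fun s hs => hL s (by simp [hs])) h3, h1, prodL_cons, map_mul]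

end Cfsg.Agent.Lib.TwAut.Orbit
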