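import Cfsg.Agent.Lib.TwAut.Norm
import Cfsg.Agent.Lib.Steinberg.AutRoot

/-!
# Automorphisms of twisted groups: the class root subgroups are permuted

An automorphism of `G¹` preserving `U¹` and `V¹` permutes the minimal parabolic subgroups, hence the
root subgroups of the classes of fundamental roots and of their negatives.
-/

set_option autoImplicit false
set_option linter.unusedSectionVars false
set_option linter.unusedVariables false
set_option linter.ambiguousOpen false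
set_option linter.dupNamespace false

namespace Cfsg.Agent.Lib.TwAut.Perm

open scoped MatrixGroups Matrix
open Cfsg Lie ChevalleyDatum
open Cfsg.Agent.Lib.Chev
open Tables Tables2 Tables3 Raise Basic AxBasic Torus Products Products2 Mono1 Mono2 Mono3 Bn Parab Unipotent
open Cfsg.Agent.Lib.Twisted.Fact Cfsg.Agent.Lib.Twisted.Bruhat Cfsg.Agent.Lib.Twisted.Tw
open Cfsg.Agent.Lib.Twisted.Struct
open Cfsg.Agent.Lib.BNPair.Basic
open Cfsg.Agent.Lib.TwAut.Norm
open Cfsg.Agent.Lib.Steinberg.AutRoot (x_mem_upSub fJ_nonneg lin_neg_fJ grade_neg_fJ isMinOver_parabolic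
  exists_of_isMinOver isMinOver_map)

variable {D : ChevalleyDatum} {K : Type*} [Field K]

variable {h : Tab D} {ax : Ax D K} {tw : Tw h ax} {G1 : Subgroup (GL D.Idx K)} (T : TD h ax tw G1) (h2 : Tab2 D)

/-- The class data needed from the longest element. -/
structure W0 (T : TD h ax tw G1) : Prop where
  /-- `n_j` lies in the ambient parabolic subgroup -/
  nP : ∀ j, T.n j ∈ D.parabolicSubgroup K {i | T.J j i}
  /-- the longest element preserves the subsystem of a class -/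
  psi : ∀ j (r : Fin D.nroots), Psi D (T.J j) r → NPsi D (T.J j) (T.π₀ r)
  invol : ∀ r, T.π₀ (T.π₀ r) = r

/-- The minimal parabolic subgroup of a class. -/
noncomputable def Pj (j : T.ι) : Subgroup ↥G1 := (T.bnPair h2).parabolic {⟨T.n j, T.n_mem j⟩}

lemma n_mem_S (j : T.ι) : (⟨T.n j, T.n_mem j⟩ : ↥G1) ∈ (T.bnPair h2).S := ⟨j, rfl⟩

lemma psi_iff_inRootSub (h : Tab D) {J : ℕ → Prop} {r : ℕ} (hr : D.IsPosRoot r) :
    Psi D J r ↔ D.InRootSub {i | J i} r := by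
  rw [inRootSub_iff h hr.1]
  constructor
  · intro hp i hi hJ
    exact hp.2 i hi hJ
  · intro hc
    exact ⟨hr, fun i hi hJ => hc i hi hJ⟩

lemma npsi_iff_inRootSub (h : Tab D) {J : ℕ → Prop} {r : Fin D.nroots} (hr : D.IsNegRoot r) :
    NPsi D J r ↔ D.InRootSub {i | J i} r := by
  have hp : D.IsPosRoot (D.neg r) := (isPosRoot_neg h r.isLt).mpr hr
  rw [inRootSub_iff h r.isLt]
  constructor
  · intro hn i hi hJ
    have := hn.2.2 i hi hJ
    rw [h.coef_neg _ r.isLt i hi] at this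
    simpa using this
  · intro hc
    refine ⟨r.isLt, hp, fun i hi hJ => ?_⟩
    rw [h.coef_neg _ r.isLt i hi, hc i hi hJ]
    simp

variable {T}

/-- The longest element sends the negatives of a class to the class. -/
lemma W0.npsi (hW : W0 T) (j : T.ι) (r : Fin D.nroots) (hr : NPsi D (T.J j) r) : Psi D (T.J j) (T.π₀ r) := by
  obtain ⟨c₀, H₀⟩ := T.n₀_nor
  have h1 := hW.psi j (negF h r) hr.2
  rw [H₀.neg] at h1
  have e : D.neg (negF h (T.π₀ r)) = T.π₀ r := h.neg_neg _ (T.π₀ r).isLt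
  have h3 := h1.2
  rwa [e] at h3

lemma W0.inRootSub (hW : W0 T) (j : T.ι) (r : Fin D.nroots) (hr : D.InRootSub {i | T.J j i} r) :
    D.InRootSub {i | T.J j i} (T.π₀ r) := by
  by_cases hp : D.IsPosRoot r
  · have h1 := hW.psi j r ((psi_iff_inRootSub h hp).mpr hr)
    have hn : D.IsNegRoot (T.π₀ r) := T.n₀_neg r hp
    exact (npsi_iff_inRootSub h hn).mp h1
  · have hn := (not_isPos_iff h r.isLt).mp hp
    have hn' : NPsi D (T.J j) r := (npsi_iff_inRootSub h hn).mpr hr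
    have h1 := hW.npsi j r hn'
    exact (psi_iff_inRootSub h h1.1).mp h1

lemma W0.π_inv (hW : W0 T) (r : Fin D.nroots) : T.π₀⁻¹ r = T.π₀ r := by
  rw [Equiv.Perm.inv_eq_iff_eq, hW.invol]

lemma W0.conj_psi (hW : W0 T) (j : T.ι) {x : GL D.Idx K} (hx : x ∈ rootClosure ax (Psi D (T.J j))) :
    T.n₀ * x * T.n₀⁻¹ ∈ rootClosure ax (NPsi D (T.J j)) := by
  obtain ⟨c₀, H₀⟩ := T.n₀_nor
  exact conj_closure H₀ (fun r hr => hr.1.1) (fun r hr => hW.psi j r hr) hx

lemma W0.conj_inv_psi (hW : W0 T) (j : T.ι) {x : GL D.Idx K} (hx : x ∈ rootClosure ax (Psi D (T.J j))) :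
    T.n₀⁻¹ * x * T.n₀ ∈ rootClosure ax (NPsi D (T.J j)) := by
  obtain ⟨c₀, H₀⟩ := T.n₀_nor
  refine conj_closure' H₀ (fun r hr => hr.1.1) (fun r hr => ?_) hx
  rw [hW.π_inv]
  exact hW.psi j r hr

lemma W0.conj_inv_npsi (hW : W0 T) (j : T.ι) {x : GL D.Idx K} (hx : x ∈ rootClosure ax (NPsi D (T.J j))) :
    T.n₀⁻¹ * x * T.n₀ ∈ rootClosure ax (Psi D (T.J j)) := by
  obtain ⟨c₀, H₀⟩ := T.n₀_nor
  refine conj_closure' H₀ (fun r hr => hr.1) (fun r hr => ?_) hx
  rw [hW.π_inv]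
  exact hW.npsi j r hr

include h2 in
lemma W0.conj_parabolic_le (hW : W0 T) (j : T.ι) {g : GL D.Idx K} (hg : g ∈ D.parabolicSubgroup K {i | T.J j i}) :
    T.n₀ * g * T.n₀⁻¹ ∈ upSub (F := K) (grade D (fun k => - fJ {i | T.J j i} k)) := by
  obtain ⟨c₀, H₀⟩ := T.n₀_nor
  rw [parabolic_eq h h2 ax] at hg
  have hle : D.diagonalSubgroup K ⊔ rootClosure ax (fun r => D.IsPosRoot r ∨ D.InRootSub {i | T.J j i} r) ≤
      (upSub (F := K) (grade D (fun k => - fJ {i | T.J j i} k))).comap (MulAut.conj T.n₀).toMonoidHom := by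
    apply sup_le
    · intro a ha
      rw [Subgroup.mem_comap]
      simp only [MulEquiv.coe_toMonoidHom, MulAut.conj_apply]
      have : T.n₀ * a * T.n₀⁻¹ ∈ D.diagonalSubgroup K := H₀.conj_mem_H h ax ha
      obtain ⟨y, hy⟩ := exists_tor_of_mem ax h this
      rw [hy]
      exact tor_mem_upSub _ y
    · apply rootClosure_le
      intro r t hr
      rw [Subgroup.mem_comap]
      simp only [MulEquiv.coe_toMonoidHom, MulAut.conj_apply]
      have hr0 : r < D.nroots := by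
        rcases hr with hr | hr
        · exact hr.1
        · exact hr.1
      have e1 := H₀.conj ⟨r, hr0⟩ t
      simp only at e1
      rw [e1]
      apply x_mem_upSub h ax (T.π₀ ⟨r, hr0⟩).isLt
      rw [lin_neg_fJ]
      rcases hr with hr | hr
      · have hneg : D.IsNegRoot (T.π₀ ⟨r, hr0⟩) := T.n₀_neg ⟨r, hr0⟩ hr
        have := (isNegRoot_iff h (T.π₀ ⟨r, hr0⟩).isLt).mp hneg
        rw [neg_nonneg, lin]
        apply Finset.sum_nonpos
        intro k hk
        exact mul_nonpos_of_nonneg_of_nonpos (fJ_nonneg _ _) (this k (Finset.mem_range.mp hk))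
      · have h0 := hW.inRootSub j ⟨r, hr0⟩ hr
        rw [lin_fJ_zero h h0]
        simp
  have := hle hg
  rwa [Subgroup.mem_comap] at this

include h2 in
/-- The root subgroup of a class from the parabolic subgroup. -/
theorem W0.mem_psi_of (hW : W0 T) (j : T.ι) {u : GL D.Idx K} (hu : u ∈ D.posUnipotent K)
    (hP : T.n₀⁻¹ * u * T.n₀ ∈ D.parabolicSubgroup K {i | T.J j i}) : u ∈ rootClosure ax (Psi D (T.J j)) := by
  set J : Set ℕ := {i | T.J j i} with hJ
  have hK' : u ∈ upSub (F := K) (grade D (fun k => - fJ J k)) := by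
    have := hW.conj_parabolic_le h2 j hP
    have e2 : T.n₀ * (T.n₀⁻¹ * u * T.n₀) * T.n₀⁻¹ = u := by group
    rwa [e2] at this
  obtain ⟨y, hy, x, hx, rfl⟩ := U_factor h ax (T.J j) hu
  have hxup : x ∈ upSub (F := K) (grade D (fun k => - fJ J k)) := by
    refine rootClosure_induction ax (Q := fun x => x ∈ upSub (F := K) (grade D (fun k => - fJ J k)))
      (Subgroup.one_mem _) ?_ (fun a b ha hb => Subgroup.mul_mem _ ha hb) hx
    intro r t hr
    apply x_mem_upSub h ax hr.1.1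
    rw [lin_neg_fJ, lin_fJ_zero h ((psi_iff_inRootSub h hr.1).mp hr)]
    simp
  have hyup : y ∈ upSub (F := K) (grade D (fun k => - fJ J k)) := by
    have e : y = y * x * x⁻¹ := by group
    rw [e]
    exact Subgroup.mul_mem _ hK' (Subgroup.inv_mem _ hxup)
  have hyr : y ∈ raisingSubgroup (F := K) (grade D (fJ J)) 1 le_rfl := by
    rw [← closure_eq_rootClosure ax] at hy
    refine Unipotent.closure_le_raising h le_rfl _ ?_ hy
    rintro r ⟨hr, hne⟩
    refine ⟨hr.1, lin_fJ_pos h hr ?_⟩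
    intro hin
    exact hne ((psi_iff_inRootSub h hr).mpr hin)
  rw [mem_raisingSubgroup] at hyr
  have hy1 : y = 1 := by
    apply one_of_raises_raises hyup.1
    intro row col hne
    have := hyr row col hne
    simp only [grade_neg_fJ, neg_neg]
    exact this
  rw [hy1, one_mul]
  exact hx

variable (T)

/-- The class root subgroup in `G¹`. -/
abbrev XS (j : T.ι) : Subgroup ↥G1 := (rootClosure ax (Psi D (T.J j))).subgroupOf G1

/-- The negative class root subgroup in `G¹`. -/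
abbrev YS (j : T.ι) : Subgroup ↥G1 := (rootClosure ax (NPsi D (T.J j))).subgroupOf G1

variable {T}

/-- `P_j` lies in the ambient parabolic. -/
lemma W0.Pj_le (hW : W0 T) (j : T.ι) {g : ↥G1} (hg : g ∈ Pj T h2 j) :
    (g : GL D.Idx K) ∈ D.parabolicSubgroup K {i | T.J j i} := by
  have hle : Pj T h2 j ≤ (D.parabolicSubgroup K {i | T.J j i}).subgroupOf G1 := by
    apply sup_le
    · intro b hb
      rw [Subgroup.mem_subgroupOf]
      exact borel_le_parabolic h h2 ax _ (Subgroup.mem_subgroupOf.mp hb).1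
    · rw [Subgroup.closure_le]
      rintro g rfl
      rw [SetLike.mem_coe, Subgroup.mem_subgroupOf]
      exact hW.nP j
  exact Subgroup.mem_subgroupOf.mp (hle hg)

/-- The negative class root subgroup lies in `P_j`. -/
lemma YS_le_Pj (j : T.ι) {y : ↥G1} (hy : y ∈ YS T j) : y ∈ Pj T h2 j := by
  set s : ↥G1 := ⟨T.n j, T.n_mem j⟩ with hs
  have hsP : s ∈ Pj T h2 j := subset_parabolic _ rfl
  have hz : s⁻¹ * y * s ∈ Pj T h2 j := by
    apply B_le_parabolic
    rw [show (T.bnPair h2).B = (D.borelSubgroup K ⊓ G1).subgroupOf G1 from rfl, Subgroup.mem_subgroupOf]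
    refine ⟨(le_sup_left : D.posUnipotent K ≤ D.borelSubgroup K) (psi_le_U ax (T.J j) ?_), (s⁻¹ * y * s).2⟩
    exact T.n_inv_conj_npsi j hy
  have e : y = s * (s⁻¹ * y * s) * s⁻¹ := by group
  rw [e]
  exact Subgroup.mul_mem _ (Subgroup.mul_mem _ hsP hz) (Subgroup.inv_mem _ hsP)

/-- The characterization of the class root subgroup. -/
theorem W0.XS_iff (hW : W0 T) (j : T.ι) (u : ↥G1) :
    u ∈ XS T j ↔ u ∈ U1 D K G1 ∧ (n0g T)⁻¹ * u * n0g T ∈ Pj T h2 j := by
  constructor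
  · intro hu
    have hu' : (u : GL D.Idx K) ∈ rootClosure ax (Psi D (T.J j)) := hu
    refine ⟨psi_le_U ax _ hu', YS_le_Pj h2 j ?_⟩
    rw [Subgroup.mem_subgroupOf]
    exact hW.conj_inv_psi j hu'
  · rintro ⟨hu, hP⟩
    rw [Subgroup.mem_subgroupOf]
    have h3 := hW.Pj_le h2 j hP
    have e : (((n0g T)⁻¹ * u * n0g T : ↥G1) : GL D.Idx K) = T.n₀⁻¹ * u * T.n₀ := rfl
    rw [e] at h3
    exact hW.mem_psi_of h2 j hu h3

/-- The negative class root subgroup as a conjugate. -/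
theorem W0.YS_iff (hW : W0 T) (j : T.ι) (u : ↥G1) : u ∈ YS T j ↔ (n0g T)⁻¹ * u * n0g T ∈ XS T j := by
  rw [Subgroup.mem_subgroupOf, Subgroup.mem_subgroupOf]
  constructor
  · intro hu
    exact hW.conj_inv_npsi j hu
  · intro hu
    have := hW.conj_psi j hu
    have e : T.n₀ * ((((n0g T)⁻¹ * u * n0g T : ↥G1)) : GL D.Idx K) * T.n₀⁻¹ = u := by
      simp only [n0g, Subgroup.coe_mul, InvMemClass.coe_inv]
      group
    rwa [e] at this

include h2 in
/-- An automorphism preserving `U¹` preserves the Borel subgroup. -/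
lemma borel_map {σ : ↥G1 ≃* ↥G1} (hU : ∀ u, u ∈ U1 D K G1 ↔ σ u ∈ U1 D K G1) (x : ↥G1) :
    x ∈ (T.bnPair h2).B ↔ σ x ∈ (T.bnPair h2).B := by
  have key : ∀ y : ↥G1, y ∈ (T.bnPair h2).B ↔ ∀ u : ↥G1, u ∈ U1 D K G1 ↔ y * u * y⁻¹ ∈ U1 D K G1 := by
    intro y
    constructor
    · intro hy
      exact norm_of_borel T (Subgroup.mem_subgroupOf.mp hy).1
    · intro hy
      rw [show (T.bnPair h2).B = (D.borelSubgroup K ⊓ G1).subgroupOf G1 from rfl, Subgroup.mem_subgroupOf]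
      exact ⟨borel_of_norm T h2 hy, y.2⟩
  rw [key, key]
  constructor
  · intro hx w
    have e : w = σ (σ.symm w) := by simp
    conv_lhs => rw [e]
    rw [← hU, hx, hU]
    simp
  · intro hx w
    rw [hU w, hx, ← map_inv, ← map_mul, ← map_mul, ← hU]

/-- An automorphism preserving `U¹` permutes the minimal parabolic subgroups. -/
theorem Pj_perm {σ : ↥G1 ≃* ↥G1} (hU : ∀ u, u ∈ U1 D K G1 ↔ σ u ∈ U1 D K G1) (j : T.ι) :
    ∃ k, ∀ x, x ∈ Pj T h2 j ↔ σ x ∈ Pj T h2 k := by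
  have hM := isMinOver_map (isMinOver_parabolic (P := T.bnPair h2) (n_mem_S T h2 j)) σ (borel_map h2 hU)
  obtain ⟨s, ⟨k, hk⟩, e⟩ := exists_of_isMinOver hM
  have e1 : s = ⟨T.n k, T.n_mem k⟩ := Subtype.ext hk
  refine ⟨k, fun x => ?_⟩
  show x ∈ (T.bnPair h2).parabolic _ ↔ σ x ∈ (T.bnPair h2).parabolic _
  rw [← e1, ← e]
  constructor
  · intro hx
    exact ⟨x, hx, rfl⟩
  · rintro ⟨y, hy, e2⟩
    have : y = x := σ.injective e2
    rwa [← this]

/-- The conjugate of an automorphism by the longest element. -/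
noncomputable def twist (T : TD h ax tw G1) (σ : ↥G1 ≃* ↥G1) : ↥G1 ≃* ↥G1 :=
  (MulAut.conj (n0g T)).trans (σ.trans (MulAut.conj (n0g T)⁻¹))

lemma twist_apply (σ : ↥G1 ≃* ↥G1) (x : ↥G1) :
    twist T σ x = (n0g T)⁻¹ * σ (n0g T * x * (n0g T)⁻¹) * n0g T := by
  simp [twist]

lemma twist_conj (σ : ↥G1 ≃* ↥G1) (y : ↥G1) :
    twist T σ ((n0g T)⁻¹ * y * n0g T) = (n0g T)⁻¹ * σ y * n0g T := by
  rw [twist_apply]
  have : n0g T * ((n0g T)⁻¹ * y * n0g T) * (n0g T)⁻¹ = y := by group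
  rw [this]

include h2 in
lemma W0.mem_V1_iff' (hW : W0 T) (v : ↥G1) : v ∈ V1 D K G1 ↔ n0g T * v * (n0g T)⁻¹ ∈ U1 D K G1 := by
  obtain ⟨c₀, H₀⟩ := T.n₀_nor
  rw [Subgroup.mem_subgroupOf, Subgroup.mem_subgroupOf]
  simp only [Subgroup.coe_mul, InvMemClass.coe_inv, n0g]
  rw [posUnipotent_eq ax, negUnipotent_eq ax]
  constructor
  · intro hv
    refine conj_closure H₀ (fun r hr => hr.1) (fun r hr => ?_) hv
    rw [← hW.π_inv]
    exact T.n₀_inv_pos h2 r hr
  · intro hu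
    have e : (v : GL D.Idx K) = T.n₀⁻¹ * (T.n₀ * v * T.n₀⁻¹) * T.n₀ := by group
    rw [e]
    refine conj_closure' H₀ (fun r hr => hr.1) (fun r hr => ?_) hu
    rw [hW.π_inv]
    exact T.n₀_neg r hr

include h2 in
lemma twist_norm (hW : W0 T) {σ : ↥G1 ≃* ↥G1} (hU : ∀ u, u ∈ U1 D K G1 ↔ σ u ∈ U1 D K G1)
    (hV : ∀ v, v ∈ V1 D K G1 ↔ σ v ∈ V1 D K G1) :
    (∀ u, u ∈ U1 D K G1 ↔ twist T σ u ∈ U1 D K G1) ∧ (∀ v, v ∈ V1 D K G1 ↔ twist T σ v ∈ V1 D K G1) := by
  set m := n0g T with hm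
  constructor
  · intro u
    rw [twist_apply, ← hm, ← mem_V1_iff T h2, ← hV, mem_V1_iff T h2, ← hm]
    have : m⁻¹ * (m * u * m⁻¹) * m = u := by group
    rw [this]
  · intro v
    rw [twist_apply, ← hm, hW.mem_V1_iff' h2 v, ← hm, hU, hW.mem_V1_iff' h2, ← hm]
    have : m * (m⁻¹ * σ (m * v * m⁻¹) * m) * m⁻¹ = σ (m * v * m⁻¹) := by group
    rw [this]

include h2 in
/-- An automorphism preserving `U¹` and `V¹` permutes the class root subgroups. -/
theorem XS_perm (hW : W0 T) {σ : ↥G1 ≃* ↥G1} (hU : ∀ u, u ∈ U1 D K G1 ↔ σ u ∈ U1 D K G1)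
    (hV : ∀ v, v ∈ V1 D K G1 ↔ σ v ∈ V1 D K G1) (j : T.ι) : ∃ k, ∀ u, u ∈ XS T j ↔ σ u ∈ XS T k := by
  obtain ⟨k, hk⟩ := Pj_perm h2 (twist_norm h2 hW hU hV).1 j
  refine ⟨k, fun u => ?_⟩
  rw [hW.XS_iff h2 j u, hW.XS_iff h2 k (σ u), hU, hk, twist_conj]

include h2 in
/-- An automorphism preserving `U¹` and `V¹` permutes the negative class root subgroups. -/
theorem YS_perm (hW : W0 T) {σ : ↥G1 ≃* ↥G1} (hU : ∀ u, u ∈ U1 D K G1 ↔ σ u ∈ U1 D K G1)
    (hV : ∀ v, v ∈ V1 D K G1 ↔ σ v ∈ V1 D K G1) (j : T.ι) : ∃ k, ∀ u, u ∈ YS T j ↔ σ u ∈ YS T k := by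
  obtain ⟨htU, htV⟩ := twist_norm h2 hW hU hV
  obtain ⟨k, hk⟩ := XS_perm h2 hW htU htV j
  refine ⟨k, fun u => ?_⟩
  rw [hW.YS_iff j u, hW.YS_iff k (σ u), hk, twist_conj]

end Cfsg.Agent.Lib.TwAut.Perm
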