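import Cfsg.Agent.Lib.TwAut.Class

/-!
# Automorphisms of twisted groups: the shape of a normalized automorphism
-/

set_option autoImplicit false
set_option linter.unusedSectionVars false
set_option linter.unusedVariables false
set_option linter.ambiguousOpen false
set_option linter.dupNamespace false

namespace Cfsg.Agent.Lib.TwAut.Class

open scoped MatrixGroups Matrix
open Cfsg Lie ChevalleyDatum
open Cfsg.Agent.Lib.Chev
open Tables Tables2 Tables3 Raise Basic AxBasic Torus Products Products2 Mono1 Mono2 Mono3 Bn Parab Unipotent SL2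
open Cfsg.Agent.Lib.Twisted.Fact Cfsg.Agent.Lib.Twisted.Bruhat Cfsg.Agent.Lib.Twisted.Tw
open Cfsg.Agent.Lib.Twisted.Struct
open Cfsg.Agent.Lib.TwAut.Norm Cfsg.Agent.Lib.TwAut.Perm

variable {D : ChevalleyDatum} {K : Type*} [Field K]

variable {h : Tab D} {ax : Ax D K} {tw : Tw h ax} {G1 : Subgroup (GL D.Idx K)}

variable {T : TD h ax tw G1} (C : CD T) (h2 : Tab2 D)

namespace CD

variable {σ : ↥G1 ≃* ↥G1} (hU : ∀ u, u ∈ U1 D K G1 ↔ σ u ∈ U1 D K G1) (hV : ∀ v, v ∈ V1 D K G1 ↔ σ v ∈ V1 D K G1)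

include h2 hU hV

/-- An automorphism preserving `U¹`, `V¹` preserves each class. -/
theorem class_fixed (j : T.ι) : (∀ t, ∃ a, σ (C.Xg j t) = C.Xg j a) ∧ (∀ t, ∃ a, σ (C.Yg j t) = C.Yg j a) := by
  classical
  have hW := C.w0 h2
  have hX : ∀ j, ∃ k, ∀ u, u ∈ XS T j ↔ σ u ∈ XS T k := XS_perm h2 hW hU hV
  have hY : ∀ j, ∃ k, ∀ u, u ∈ YS T j ↔ σ u ∈ YS T k := YS_perm h2 hW hU hV
  choose π hπ using hX
  choose π' hπ' using hY
  have fX : ∀ j t, ∃ a, σ (C.Xg j t) = C.Xg (π j) a := by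
    intro j t
    have := (hπ j (C.Xg j t)).mp ((C.XS_iff j _).mpr ⟨t, rfl⟩)
    exact (C.XS_iff _ _).mp this
  have fY : ∀ j t, ∃ a, σ (C.Yg j t) = C.Yg (π' j) a := by
    intro j t
    have := (hπ' j (C.Yg j t)).mp ((C.YS_iff j _).mpr ⟨t, rfl⟩)
    exact (C.YS_iff _ _).mp this
  have gX : ∀ j a, ∃ t, C.Xg (π j) a = σ (C.Xg j t) := by
    intro j a
    have h1 : σ.symm (C.Xg (π j) a) ∈ XS T j := by
      rw [hπ j, MulEquiv.apply_symm_apply]
      exact (C.XS_iff _ _).mpr ⟨a, rfl⟩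
    obtain ⟨t, ht⟩ := (C.XS_iff _ _).mp h1
    refine ⟨t, ?_⟩
    rw [← ht, MulEquiv.apply_symm_apply]
  have hππ : ∀ j, π j = π' j := by
    intro j
    by_contra hne
    obtain ⟨a, ha⟩ := fX j 1
    obtain ⟨b, hb⟩ := fY j (-1)
    apply C.XY_not_comm j
    have hc := C.XY_comm hne a b
    rw [← ha, ← hb] at hc
    have e : σ (C.Xg j 1 * C.Yg j (-1)) = σ (C.Yg j (-1) * C.Xg j 1) := by
      rw [map_mul, map_mul]
      exact hc.eq
    exact σ.injective e
  have hid : ∀ j, π j = j := by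
    apply C.rigid
    · intro j
      choose f hf using fX j
      apply Nat.card_congr
      refine Equiv.ofBijective f ⟨?_, ?_⟩
      · intro a b e
        apply C.Xg_inj j
        apply σ.injective
        rw [hf, hf, e]
      · intro a
        obtain ⟨t, ht⟩ := gX j a
        refine ⟨t, ?_⟩
        apply C.Xg_inj (π j)
        rw [← hf, ht]
    · intro j k
      constructor
      · intro hc s t
        obtain ⟨s', hs'⟩ := gX j s
        obtain ⟨t', ht'⟩ := gX k t
        have e1 : (C.Xg j s') * (C.Xg k t') = (C.Xg k t') * (C.Xg j s') := Subtype.ext (hc s' t').eq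
        have e2 := congrArg σ e1
        rw [map_mul, map_mul, ← hs', ← ht'] at e2
        exact congrArg Subtype.val e2
      · intro hc s t
        obtain ⟨a, ha⟩ := fX j s
        obtain ⟨b, hb⟩ := fX k t
        have e1 : (C.Xg (π j) a) * (C.Xg (π k) b) = (C.Xg (π k) b) * (C.Xg (π j) a) := Subtype.ext (hc a b).eq
        rw [← ha, ← hb, ← map_mul, ← map_mul] at e1
        exact congrArg Subtype.val (σ.injective e1)
  constructor
  · intro t
    have := fX j t
    rwa [hid j] at this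
  · intro t
    have := fY j t
    rwa [← hππ j, hid j] at this

/-- The shape of an automorphism preserving `U¹`, `V¹`. -/
theorem exists_shape [Finite K] : ∃ (τ : K ≃+* K) (c : ∀ j, (C.F j)ˣ), ∀ j (t u : C.F j),
    ((u : K) = ((c j : C.F j) : K) * τ t → σ (C.Xg j t) = C.Xg j u) ∧
    ((u : K) = ((c j : C.F j) : K)⁻¹ * τ t → σ (C.Yg j t) = C.Yg j u) := by
  classical
  have fX := fun j => (C.class_fixed h2 hU hV j).1
  have fY := fun j => (C.class_fixed h2 hU hV j).2
  choose φ hφ using fX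
  choose ψ hψ using fY
  have main : ∀ j, ∃ (τ : C.F j ≃+* C.F j) (c : (C.F j)ˣ), ∀ t, φ j t = c * τ t ∧ ψ j t = (c : C.F j)⁻¹ * τ t := by
    intro j
    exact Rank1.exists_shape (C.relg j) (U1 D K G1) (V1 D K G1) (H1 D K G1) (C.Xg_U j) (C.Yg_V j) (C.Hg_H j)
      (U1_inf_H1 h ax) (U1_inf_V1 h ax) (C.Xg_inj j) (hφ j) (hψ j)
  choose τ' c hc using main
  have hφ' : ∀ j t, σ (C.Xg j t) = C.Xg j ((c j : C.F j) * τ' j t) := fun j t => by rw [hφ, (hc j t).1]
  have hψ' : ∀ j t, σ (C.Yg j t) = C.Yg j ((c j : C.F j)⁻¹ * τ' j t) := fun j t => by rw [hψ, (hc j t).2]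
  have hH : ∀ j t, t ≠ 0 → σ (HH (C.Xg j) (C.Yg j) t) = HH (C.Xg j) (C.Yg j) (τ' j t) := fun j t ht =>
    Rank1.map_HH (C.relg j) (c j).ne_zero (hφ' j) (hψ' j) ht
  -- the edges
  have hedge : ∀ i k (e : C.Edge i k) (t : C.F i), ((τ' i t : C.F i) : K) = (τ' k ⟨t, C.edge_le i k e t.2⟩ : C.F k) := by
    intro i k e t
    by_cases ht : t = 0
    · subst ht
      have h0 : (⟨((0 : C.F i) : K), C.edge_le i k e (0 : C.F i).2⟩ : C.F k) = 0 := rfl
      rw [h0, map_zero, map_zero]
      rfl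
    set inc : C.F k := ⟨t, C.edge_le i k e t.2⟩ with hinc
    have hinc0 : inc ≠ 0 := by
      intro h0
      apply ht
      apply Subtype.ext
      have := congrArg (Subtype.val) h0
      exact this
    have hτ0 : τ' i t ≠ 0 := by simpa using ht
    have hτ1 : τ' k inc ≠ 0 := by simpa using hinc0
    -- the relation at `t`
    have e1 : HH (C.Xg i) (C.Yg i) t * C.Xg k 1 * (HH (C.Xg i) (C.Yg i) t)⁻¹ = C.Xg k inc⁻¹ := by
      apply Subtype.ext
      apply C.edge_conj i k e t 1 inc⁻¹ ht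
      simp [hinc]
    have e2 := congrArg σ e1
    rw [map_mul, map_mul, map_inv, hH i t ht, hφ' k, hφ' k, map_one, mul_one, map_inv₀] at e2
    -- the relation at `τ t`
    set v : C.F k := ⟨((τ' i t : C.F i) : K)⁻¹ * ((c k : C.F k) : K),
      Subfield.mul_mem _ (Subfield.inv_mem _ (C.edge_le i k e (τ' i t).2)) (c k : C.F k).2⟩ with hv
    have e3 : HH (C.Xg i) (C.Yg i) (τ' i t) * C.Xg k (c k : C.F k) * (HH (C.Xg i) (C.Yg i) (τ' i t))⁻¹ = C.Xg k v := by
      apply Subtype.ext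
      exact C.edge_conj i k e (τ' i t) (c k : C.F k) v hτ0 rfl
    rw [e3] at e2
    have e4 := C.Xg_inj k e2
    have e5 := congrArg (Subtype.val) e4
    simp only [hv] at e5
    have hc0 : ((c k : C.F k) : K) ≠ 0 := by
      have := (c k).ne_zero
      simp
    have e6 : (((τ' i t : C.F i) : K))⁻¹ * ((c k : C.F k) : K) = ((c k : C.F k) : K) * ((τ' k inc : C.F k) : K)⁻¹ := by
      simpa using e5
    have hn1 : ((τ' i t : C.F i) : K) ≠ 0 := by simpa using hτ0
    have hn2 : ((τ' k inc : C.F k) : K) ≠ 0 := by simpa using hτ1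
    field_simp at e6
    exact e6.symm
  -- the field automorphism
  set b := C.base with hb
  have hFb := C.F_base
  let e : K ≃+* C.F b :=
    { toFun := fun t => ⟨t, hFb t⟩
      invFun := fun t => t
      left_inv := fun t => rfl
      right_inv := fun t => rfl
      map_mul' := fun _ _ => rfl
      map_add' := fun _ _ => rfl }
  let τ₀ : K ≃+* K := e.trans ((τ' b).trans e.symm)
  have hτ₀ : ∀ t : K, τ₀ t = (τ' b ⟨t, hFb t⟩ : C.F b) := fun t => rfl
  have hall : ∀ j (t : C.F j), ((τ' j t : C.F j) : K) = τ₀ t := by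
    apply C.reach
    · intro t
      rfl
    · intro i k hik hk t
      rw [hedge i k hik t, hk]
  refine ⟨τ₀, c, fun j t u => ⟨fun hu => ?_, fun hu => ?_⟩⟩
  · rw [hφ']
    congr 1
    apply Subtype.ext
    rw [hu, ← hall]
    rfl
  · rw [hψ']
    congr 1
    apply Subtype.ext
    rw [hu, ← hall]
    simp

end CD

end Cfsg.Agent.Lib.TwAut.Class
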